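import Cfsg.Agent.H60.CovSpec

/-! COV: `JobSL`.  An element of `SL_n`, `n ≤ 4`, fixes a point or an extension field structure. -/

set_option autoImplicit false

namespace H66.Cov

open Polynomial Module H60.Cov

variable {F : Type} [Field F]

/-- Roots modulo the irreducible factors give a root modulo the polynomial. -/
theorem exists_root_mod {f : F[X]} (hf : f.Separable) (m : F[X]) : m ≠ 0 →
    (∀ φ : F[X], Irreducible φ → φ ∣ m → ∃ a, φ ∣ f.comp a) → ∃ a, m ∣ f.comp a := by
  induction m using UniqueFactorizationMonoid.induction_on_coprime with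
  | h0 => exact fun h => absurd rfl h
  | h1 hu => exact fun _ _ => ⟨0, hu.dvd⟩
  | @hpr p i hp =>
    intro _ h
    rcases i with _ | i
    · exact ⟨0, by simp⟩
    obtain ⟨a, ha⟩ := h p hp.irreducible (dvd_pow_self p i.succ_ne_zero)
    have e : ∀ b g : F[X], aeval (AdjoinRoot.mk (p ^ (i + 1)) b) g = AdjoinRoot.mk _ (g.comp b) :=
      fun b g => by rw [← AdjoinRoot.aeval_eq, ← AdjoinRoot.aeval_eq, aeval_comp]
    have h1 : IsNilpotent (aeval (AdjoinRoot.mk (p ^ (i + 1)) a) f) :=
      ⟨i + 1, by rw [e, ← map_pow, AdjoinRoot.mk_eq_zero]; exact pow_dvd_pow_of_dvd ha _⟩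
    obtain ⟨u, v, huv⟩ := hf
    have h2 := ((Commute.all (aeval (AdjoinRoot.mk (p ^ (i + 1)) a) u) _).isNilpotent_mul_left
      h1).isUnit_one_sub
    rw [← map_mul, ← map_one (aeval (R := F) (AdjoinRoot.mk (p ^ (i + 1)) a)), ← map_sub,
      show 1 - u * f = v * derivative f by rw [← huv]; ring, map_mul] at h2
    obtain ⟨r, ⟨-, hr⟩, -⟩ := existsUnique_nilpotent_sub_and_aeval_eq_zero h1
      (isUnit_of_mul_isUnit_right h2)
    obtain ⟨b, rfl⟩ := AdjoinRoot.mk_surjective r
    exact ⟨b, by rwa [e, AdjoinRoot.mk_eq_zero] at hr⟩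
  | @hcp x y hxy hx hy =>
    intro h0 h
    obtain ⟨a, ha⟩ := hx (left_ne_zero_of_mul h0) fun φ h1 h2 => h φ h1 (h2.mul_right y)
    obtain ⟨b, hb⟩ := hy (right_ne_zero_of_mul h0) fun φ h1 h2 => h φ h1 (h2.mul_left x)
    obtain ⟨u, v, e⟩ := hxy.isCoprime
    have key : ∀ {z c d : F[X]}, z ∣ c - d → z ∣ f.comp d → z ∣ f.comp c := fun {z c d} h1 h2 => by
      have := (h1.trans (sub_dvd_eval_sub c d (f.map C))).add h2
      rwa [eval_map, eval_map, ← comp, ← comp, sub_add_cancel] at this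
    refine ⟨a * (v * y) + b * (u * x), hxy.isCoprime.mul_dvd (key ⟨u * (b - a), ?_⟩ ha)
      (key ⟨v * (a - b), ?_⟩ hb)⟩
    · linear_combination a * e
    · linear_combination b * e

variable {E V : Type} [Field E] [Algebra F E] [AddCommGroup V] [Module F V] [FiniteDimensional F V]
  (pb : PowerBasis F E)

theorem model {k : End F V} (hk : aeval k (minpoly F pb.gen) = 0) {d : ℕ}
    (hd : finrank F V = pb.dim * d) : ∃ e : V ≃ₗ[F] (Fin d → E), ∀ v, e (k v) = pb.gen • e v := by
  let _ : Module E V := Module.compHom V (pb.lift k hk).toRingHom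
  have : IsScalarTower F E V := ⟨fun a b v => by
    change pb.lift k hk (a • b) v = a • pb.lift k hk b v
    rw [map_smul]; rfl⟩
  have := Module.Finite.of_restrictScalars_finite F E V
  have h1 : finrank E V = d := by
    have := finrank_mul_finrank F E V
    rw [hd, pb.finrank] at this
    exact Nat.eq_of_mul_eq_mul_left pb.dim_pos this
  refine ⟨(finBasisOfFinrankEq E V h1).equivFun.restrictScalars F, fun v => ?_⟩
  have : k v = pb.gen • v := by
    change _ = pb.lift k hk pb.gen v
    rw [pb.lift_gen]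
  rw [this, LinearEquiv.restrictScalars_apply, map_smul, LinearEquiv.restrictScalars_apply]

theorem exists_root {d : ℕ} (hd : finrank F V = pb.dim * d) :
    ∃ k : End F V, aeval k (minpoly F pb.gen) = 0 := by
  have := pb.finite
  obtain ⟨e⟩ := FiniteDimensional.nonempty_linearEquiv_of_finrank_eq (R := F) (M := Fin d → E)
    (M' := V) (by rw [hd, finrank_pi_fintype, pb.finrank]; simp [mul_comm])
  exact ⟨((e.conjAlgEquiv F).toAlgHom.comp (Algebra.lsmul F F (Fin d → E))) pb.gen, by
    rw [aeval_algHom_apply, minpoly.aeval, map_zero]⟩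

variable [Finite E]

theorem root_conj {k k' : End F V} (hk : aeval k (minpoly F pb.gen) = 0)
    (hk' : aeval k' (minpoly F pb.gen) = 0) {d : ℕ} (hd : finrank F V = pb.dim * (d + 1)) :
    ∃ x : End F V, LinearMap.det x = 1 ∧ x * k = k' * x := by
  have := pb.finite
  have := Finite.of_injective _ (algebraMap F E).injective
  obtain ⟨e, he⟩ := model pb hk hd
  obtain ⟨e', he'⟩ := model pb hk' hd
  obtain ⟨a, ha⟩ := FiniteField.norm_surjective F E
    (LinearMap.det (e.trans e'.symm : V →ₗ[F] V))⁻¹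
  let y : End E (Fin (d + 1) → E) := Matrix.toLin' (Matrix.diagonal (Function.update 1 0 a))
  refine ⟨(e'.symm ∘ₗ y.restrictScalars F ∘ₗ e'.symm.symm) * (e.trans e'.symm : V →ₗ[F] V), ?_, ?_⟩
  · rw [map_mul, LinearMap.det_conj, LinearMap.det_restrictScalars, LinearMap.det_toLin',
      Matrix.det_diagonal, Finset.prod_update_of_mem (Finset.mem_univ _)]
    simp only [Pi.one_apply, Finset.prod_const_one, mul_one]
    rw [ha]
    exact inv_mul_cancel₀ (LinearEquiv.isUnit_det' _).ne_zero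
  · ext v
    apply e'.injective
    simp [he, he']

theorem exists_root_comm (g : End F V)
    (h : ∀ φ : F[X], Irreducible φ → φ ∣ g.charpoly → pb.dim ∣ φ.natDegree) :
    ∃ k : End F V, aeval k (minpoly F pb.gen) = 0 ∧ k * g = g * k := by
  have := pb.finite
  have := Finite.of_injective _ (algebraMap F E).injective
  obtain ⟨a, b, hb⟩ := exists_root_mod (Algebra.IsSeparable.isSeparable F pb.gen) g.charpoly
    g.charpoly_monic.ne_zero fun φ h1 h2 => by
      have := Fact.mk h1
      have := (AdjoinRoot.powerBasis h1.ne_zero).finite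
      have := Module.finite_of_finite F (M := AdjoinRoot φ)
      obtain ⟨ψ⟩ := FiniteField.nonempty_algHom_of_finrank_dvd (F := F) (K := E) (L := AdjoinRoot φ)
        (by rw [pb.finrank, (AdjoinRoot.powerBasis h1.ne_zero).finrank]; exact h φ h1 h2)
      obtain ⟨a, ha⟩ := AdjoinRoot.mk_surjective (ψ pb.gen)
      refine ⟨a, AdjoinRoot.mk_eq_zero.1 ?_⟩
      rw [← AdjoinRoot.aeval_eq, aeval_comp, AdjoinRoot.aeval_eq, ha, aeval_algHom_apply,
        minpoly.aeval, map_zero]
  refine ⟨aeval g a, by rw [← aeval_comp, hb, map_mul, g.aeval_self_charpoly, zero_mul], ?_⟩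
  conv_lhs => rw [← aeval_X (R := F) g, aeval_X, ← aeval_X (R := F) g, aeval_X]
  simpa using congrArg (aeval g) (mul_comm a X)

theorem deg_factor {χ φ : F[X]} (h0 : χ ≠ 0) (h : ∀ c, ¬ χ.IsRoot c) (h1 : Irreducible φ)
    (h2 : φ ∣ χ) : 2 ≤ φ.natDegree ∧ φ.natDegree ≤ χ.natDegree ∧ φ.natDegree + 1 ≠ χ.natDegree := by
  have key : ∀ ψ : F[X], ψ ∣ χ → ψ.natDegree ≠ 1 := fun ψ h3 h4 => by
    obtain ⟨c, hc⟩ := exists_root_of_degree_eq_one
      ((degree_eq_iff_natDegree_eq_of_pos one_pos).2 h4)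
    exact h c (hc.dvd h3)
  have := key φ h2
  have := h1.natDegree_pos
  refine ⟨by omega, natDegree_le_of_dvd h2 h0, fun e => ?_⟩
  obtain ⟨ψ, rfl⟩ := h2
  rw [natDegree_mul (left_ne_zero_of_mul h0) (right_ne_zero_of_mul h0)] at e
  exact key ψ (dvd_mul_left _ _) (by omega)

/-- The elements whose image commutes with `k`. -/
def cent {G M : Type*} [Group G] [Monoid M] (φ : G →* M) (k : M) : Subgroup G where
  carrier := {x | φ x * k = k * φ x}
  mul_mem' {a b} ha hb := by
    change φ _ * k = k * φ _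
    rw [map_mul, mul_assoc, hb.out, ← mul_assoc, ha.out, mul_assoc]
  one_mem' := by simp
  inv_mem' {a} ha := by
    change φ _ * k = k * φ _
    rw [← mul_one (φ a⁻¹ * k), ← map_one φ, ← mul_inv_cancel a, map_mul, ← mul_assoc,
      mul_assoc _ k, ← ha.out, ← mul_assoc, ← map_mul, inv_mul_cancel, map_one, one_mul]

open Matrix in
theorem cov_sl [Finite F] (n r d : ℕ) (hr : 2 ≤ r) (hn : n + 2 = r * (d + 1))
    (h : ∀ k, 2 ≤ k → k ≤ n + 2 → k + 1 ≠ n + 2 → r ∣ k) :
    Cov2 (ProjectiveSpecialLinearGroup (Fin (n + 2)) F) := by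
  obtain ⟨p, _⟩ := CharP.exists F
  have := Fact.mk (CharP.char_is_prime F p)
  have : NeZero r := ⟨by omega⟩
  let pb := Field.powerBasisOfFiniteOfSeparable F (FiniteField.Extension F p r)
  have h1 : pb.dim = r := pb.finrank.symm.trans (FiniteField.finrank_extension F p r)
  have h2 : finrank F (Fin (n + 2) → F) = pb.dim * (d + 1) := by rw [h1, ← hn]; simp
  obtain ⟨k₀, hk⟩ := exists_root pb h2
  have e0 : (Pi.single 0 1 : Fin (n + 2) → F) ≠ 0 := by simp
  have e1 : (Pi.single 1 1 : Fin (n + 2) → F) ≠ 0 := by simp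
  let φ : SpecialLinearGroup (Fin (n + 2)) F →* End F (Fin (n + 2) → F) :=
    (Matrix.toLinAlgEquiv' (R := F) (n := Fin (n + 2))).toMonoidHom.comp
      SpecialLinearGroup.coeMonoidHom
  have hφ : ∀ x, φ x = Matrix.toLin' x.1 := fun _ => rfl
  refine cov2_quot (MulAction.stabilizer _ (Projectivization.mk F _ e0)) (cent φ k₀) (fun e => ?_)
    (fun e => ?_) (fun z hz => ?_) (fun z hz => ?_) fun g => ?_
  · obtain ⟨x, hx⟩ := MulAction.exists_smul_eq (SpecialLinearGroup (Fin (n + 2)) F)
      (Projectivization.mk F _ e0) (Projectivization.mk F _ e1)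
    rw [MulAction.mem_stabilizer_iff.1 (e ▸ Subgroup.mem_top x), Projectivization.mk_eq_mk_iff'] at hx
    obtain ⟨a, ha⟩ := hx
    simpa using congrFun ha 0
  · obtain ⟨c, hc⟩ := (mem_range_scalar_iff_commute_single (M := LinearMap.toMatrix' k₀)).2
      fun i j hij => by
        have := congrArg LinearMap.toMatrix'
          (show toLin' (transvection i j 1) * k₀ = k₀ * toLin' (transvection i j 1) from
            (Subgroup.eq_top_iff' _).1 e ⟨transvection i j 1, det_transvection_of_ne i j hij 1⟩)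
        rw [LinearMap.toMatrix'_mul, LinearMap.toMatrix'_mul, LinearMap.toMatrix'_toLin'] at this
        simpa [transvection, add_mul, mul_add, commute_iff_eq] using this
    have h3 : k₀ = algebraMap F _ c := by
      rw [← Matrix.toLin'_toMatrix' k₀, ← hc]; ext; simp [Algebra.algebraMap_eq_smul_one, Pi.single_apply]
    rw [h3, aeval_algebraMap_apply_eq_algebraMap_eval, map_eq_zero] at hk
    exact (minpoly.irreducible pb.isIntegral_gen).not_isRoot_of_natDegree_ne_one
      (by rw [pb.natDegree_minpoly]; omega) hk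
  · rw [← Projectivization.SL_mulAction_ker] at hz
    exact DFunLike.congr_fun (MonoidHom.mem_ker.1 hz) (Projectivization.mk F _ e0)
  · obtain ⟨c, -, hc⟩ := Matrix.SpecialLinearGroup.mem_center_iff.1 hz
    change φ z * k₀ = k₀ * φ z
    have : φ z = algebraMap F _ c := by
      rw [hφ, ← hc]; ext; simp [Algebra.algebraMap_eq_smul_one, Pi.single_apply]
    rw [this, Algebra.commutes]
  by_cases h3 : ∃ c, (φ g).charpoly.IsRoot c
  · obtain ⟨c, hc⟩ := h3
    obtain ⟨v, hv⟩ := ((End.hasEigenvalue_iff_isRoot_charpoly _ c).2 hc).exists_hasEigenvector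
    obtain ⟨x, hx⟩ := MulAction.exists_smul_eq (SpecialLinearGroup (Fin (n + 2)) F)
      (Projectivization.mk F v hv.2) (Projectivization.mk F _ e0)
    refine ⟨x, Or.inl ?_⟩
    rw [MulAction.mem_stabilizer_iff, ← hx, mul_smul, inv_smul_smul, mul_smul,
      Projectivization.smul_mk g]
    congr 1
    exact (Projectivization.mk_eq_mk_iff' _ _ _ _ _).2 ⟨c, hv.apply_eq_smul.symm⟩
  · push Not at h3
    obtain ⟨k, k1, k2⟩ := exists_root_comm pb (φ g) fun ψ p1 p2 => by
      obtain ⟨a, b, c⟩ := deg_factor (φ g).charpoly_monic.ne_zero h3 p1 p2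
      rw [LinearMap.charpoly_natDegree, finrank_fin_fun] at b c
      rw [h1]; exact h _ a b c
    obtain ⟨x, x1, x2⟩ := root_conj pb k1 hk h2
    let y : SpecialLinearGroup (Fin (n + 2)) F :=
      ⟨LinearMap.toMatrix' x, by rw [LinearMap.det_toMatrix', x1]⟩
    have hy : φ y = x := Matrix.toLin'_toMatrix' x
    refine ⟨y, Or.inr ?_⟩
    change φ _ * k₀ = k₀ * φ _
    have h4 : φ y⁻¹ * k₀ = k * φ y⁻¹ := by
      rw [← mul_one (φ y⁻¹ * k₀), ← map_one φ, ← mul_inv_cancel y, map_mul, hy, ← mul_assoc,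
        mul_assoc _ k₀, ← x2, ← hy, ← mul_assoc, ← map_mul, inv_mul_cancel, map_one, one_mul]
    rw [map_mul, map_mul, mul_assoc, h4, hy, ← mul_assoc, ← mul_assoc, ← mul_assoc, ← x2,
      mul_assoc x k, k2, mul_assoc x (φ g)]

theorem jobSL : JobSL := fun F _ _ =>
  ⟨fun _ => cov_sl 0 2 0 le_rfl rfl fun k _ _ _ => by omega,
    cov_sl 1 3 0 (by norm_num) rfl fun k _ _ _ => by omega,
    cov_sl 2 2 1 le_rfl rfl fun k _ _ _ => by omega⟩

end H66.Cov
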