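import Cfsg.Agent.H60.CovSpec
import Cfsg.Agent.H59.Para

/-! COV: `JobU4`.  An element of `SU₄` fixes a non-degenerate point or a totally isotropic line. -/

set_option autoImplicit false

namespace H66.Cov

open Polynomial Module H60.Cov H59 Submodule

theorem cov2_congr {G H : Type*} [Group G] [Group H] (e : G ≃* H) (h : Cov2 H) : Cov2 G := by
  obtain ⟨A, B, hA, hB, h⟩ := h
  have key : ∀ C : Subgroup H, C ≠ ⊤ → C.comap e.toMonoidHom ≠ ⊤ := fun C hC h1 =>
    hC (eq_top_iff.2 fun y _ => by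
      simpa using (h1 ▸ Subgroup.mem_top (e.symm y) : e.symm y ∈ C.comap e.toMonoidHom))
  refine ⟨_, _, key A hA, key B hB, fun g => ?_⟩
  obtain ⟨x, hx⟩ := h (e g)
  exact ⟨e.symm x, by simpa using hx⟩

variable {F V : Type} [Field F] [Fintype F] {q : ℕ} {hF : Fintype.card F = q ^ 2}
  [AddCommGroup V] [Module F V] [FiniteDimensional F V] {B : V →ₛₗ[frob hF] V →ₗ[F] F}
  (h : IsHerm B) {g : End F V} (hg : ∀ x y, B (g x) (g y) = B x y)
include h hg

omit [FiniteDimensional F V] in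
theorem inj : Function.Injective g := (injective_iff_map_eq_zero g).2 fun x hx =>
  h.nondeg x fun y => by rw [← hg, hx]; simp

theorem perp_inv {W : Submodule F V} (hW : ∀ x ∈ W, g x ∈ W) : ∀ x ∈ perp B W, g x ∈ perp B W :=
  fun x hx => mem_perp.2 fun y hy => by
    obtain ⟨z, hz⟩ := (LinearMap.injective_iff_surjective (f := g.restrict hW)).1
      (fun a b e => Subtype.ext (inj h hg (congrArg Subtype.val e))) ⟨y, hy⟩
    rw [show y = g z from (congrArg Subtype.val hz).symm, hg]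
    exact mem_perp.1 hx _ z.2

/-- An irreducible isometry lives in odd dimension. -/
theorem exists_inv (h0 : finrank F V ≠ 0) (he : Even (finrank F V)) :
    ∃ W : Submodule F V, (∀ x ∈ W, g x ∈ W) ∧ W ≠ ⊥ ∧ W ≠ ⊤ := by
  by_contra hi
  push Not at hi
  have : Nontrivial V := nontrivial_of_finrank_pos (R := F) (Nat.pos_of_ne_zero h0)
  have hint := Algebra.IsIntegral.isIntegral (R := F) g
  have m0 := minpoly.ne_zero hint
  have irr : Irreducible (minpoly F g) := by
    refine ⟨minpoly.not_isUnit F g, fun a b hab => ?_⟩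
    have e := minpoly.aeval F g
    rw [hab, map_mul] at e
    rw [hab] at m0
    by_cases h1 : LinearMap.ker (aeval g a) = ⊥
    · have h2 : aeval g b = 0 := LinearMap.ext fun x =>
        LinearMap.ker_eq_bot'.1 h1 _ (LinearMap.congr_fun e x)
      have := minpoly.dvd F g h2
      rw [hab] at this
      exact Or.inl (isUnit_of_dvd_one ((mul_dvd_mul_iff_right (right_ne_zero_of_mul m0)).1
        (by rwa [one_mul])))
    · have h2 := hi _ (fun x hx => ?_) h1
      · have := minpoly.dvd F g (LinearMap.ker_eq_top.1 h2)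
        rw [hab] at this
        exact Or.inr (isUnit_of_dvd_one ((mul_dvd_mul_iff_left (left_ne_zero_of_mul m0)).1
          (by rwa [mul_one])))
      · have := LinearMap.congr_fun (congrArg (aeval g) (mul_comm a X)) x
        rw [map_mul, map_mul, aeval_X, End.mul_apply, End.mul_apply, LinearMap.mem_ker.1 hx,
          map_zero] at this
        exact this
  have := Fact.mk irr
  let pb := AdjoinRoot.powerBasis m0
  have := pb.finite
  have := Module.finite_of_finite F (M := AdjoinRoot (minpoly F g))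
  let ι := pb.lift g (by
    rw [AdjoinRoot.minpoly_powerBasis_gen_of_monic (minpoly.monic hint)]; exact minpoly.aeval F g)
  have ι1 : ι (AdjoinRoot.root _) = g := pb.lift_gen _ _
  obtain ⟨v, hv⟩ := exists_ne (0 : V)
  have r0 : AdjoinRoot.root (minpoly F g) ≠ 0 := fun e =>
    hv (inj h hg (by rw [← ι1, e, map_zero, map_zero]; rfl))
  have ι2 : g * ι (AdjoinRoot.root _)⁻¹ = 1 :=
    ((congrArg (· * _) ι1).symm.trans (map_mul ι _ _).symm).trans
      (by rw [mul_inv_cancel₀ r0, map_one])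
  have hd : finrank F (AdjoinRoot (minpoly F g)) = finrank F V := by
    let f := LinearMap.applyₗ v ∘ₗ ι.toLinearMap
    have f1 : ∀ a, f a = ι a v := fun _ => rfl
    refine (LinearEquiv.ofBijective f ⟨(injective_iff_map_eq_zero f).2 fun a ha => ?_,
      LinearMap.range_eq_top.1 (hi _ ?_ fun e => hv ?_)⟩).finrank_eq
    · by_contra h1
      refine hv ?_
      rw [← End.one_apply (R := F) v, ← map_one ι, ← inv_mul_cancel₀ h1, map_mul, End.mul_apply, ← f1, ha,
        map_zero]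
    · rintro _ ⟨a, rfl⟩
      exact ⟨AdjoinRoot.root _ * a, by rw [f1, f1, map_mul, ι1, End.mul_apply]⟩
    · exact mem_bot F |>.1 (e ▸ ⟨1, by rw [f1, map_one]; rfl⟩)
  have adj : ∀ (p : F[X]) x y,
      B (aeval (ι (AdjoinRoot.root _)⁻¹) (p.map (frob hF)) x) y = B x (aeval g p y) := by
    have h1 : ∀ (n : ℕ) x y, B ((ι (AdjoinRoot.root _)⁻¹ ^ n) x) y = B x ((g ^ n) y) := fun n => by
      induction n with
      | zero => simp
      | succ n ih =>
        intro x y
        rw [pow_succ', End.mul_apply, ← hg, ← End.mul_apply g, ι2, End.one_apply, ih, pow_succ,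
          End.mul_apply]
    intro p
    induction p using Polynomial.induction_on' with
    | add p p' h2 h3 => intro x y; simp [h2, h3]
    | monomial n a =>
      intro x y
      simp only [Polynomial.map_monomial, aeval_monomial, End.mul_apply, algebraMap_end_apply,
        form_smul_left, form_smul_right, h1, frob_frob]
  let τ : AdjoinRoot (minpoly F g) →+* AdjoinRoot (minpoly F g) :=
    AdjoinRoot.lift ((algebraMap F _).comp (frob hF)) (AdjoinRoot.root _)⁻¹ (by
      rw [← eval₂_map, ← aeval_def]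
      refine (show Function.Injective ι from ι.toRingHom.injective) ?_
      rw [← aeval_algHom_apply, map_zero]
      exact LinearMap.ext fun x => h.nondeg _ fun y => by rw [adj, minpoly.aeval]; simp)
  have τ1 : ∀ a, τ (algebraMap F _ a) = algebraMap F _ (frob hF a) := fun a => AdjoinRoot.lift_of _
  have τ2 : τ (AdjoinRoot.root _) = (AdjoinRoot.root _)⁻¹ := AdjoinRoot.lift_root _
  obtain ⟨c, hc⟩ := exists_not_fixed h.ne_id
  have := Fintype.ofFinite (AdjoinRoot (minpoly F g))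
  obtain ⟨Q, hQ, e⟩ := exists_card_eq_sq (σ := τ)
    (fun e => hc ((algebraMap F (AdjoinRoot (minpoly F g))).injective (by rw [← τ1, e]; rfl)))
    (DFunLike.congr_fun (show τ.comp τ = RingHom.id _ from AdjoinRoot.ringHom_ext
      (RingHom.ext fun a => by
        simpa [frob_frob] using (congrArg τ (τ1 a)).trans (τ1 (frob hF a)))
      (by simp [τ2])))
  obtain ⟨k, hk⟩ := he
  rw [Module.card_eq_pow_finrank (K := F), hd, hF, hk, ← pow_mul, mul_comm, pow_mul] at hQ
  refine hc ((algebraMap F (AdjoinRoot (minpoly F g))).injective ?_)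
  rw [← τ1, e, frob_apply, ← map_pow, ← Nat.pow_left_injective two_ne_zero hQ, ← two_mul, pow_mul,
    ← hF, FiniteField.pow_card_pow]

omit h hg [Fintype F] in
theorem eig_of_one {W : Submodule F V} (hW : ∀ x ∈ W, g x ∈ W) (h1 : finrank F W = 1) :
    ∃ v ∈ W, v ≠ 0 ∧ ∃ c : F, g v = c • v := by
  obtain ⟨v, h2, h3⟩ := finrank_eq_one_iff'.1 h1
  obtain ⟨c, hc⟩ := h3 ⟨_, hW _ v.2⟩
  exact ⟨v, v.2, fun e => h2 (Subtype.ext e), c, (congrArg Subtype.val hc).symm⟩

theorem eig_two (h2 : finrank F V = 2) : ∃ v, v ≠ 0 ∧ ∃ c : F, g v = c • v := by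
  obtain ⟨W, h3, h4, h5⟩ := exists_inv h hg (by omega) (h2 ▸ even_two)
  have := finrank_lt h5
  have := finrank_eq_zero.not.2 h4
  obtain ⟨v, -, hv⟩ := eig_of_one h3 (by omega)
  exact ⟨v, hv⟩

theorem eig_two' (h2 : finrank F V = 2) (l : F) : ∃ v, v ≠ 0 ∧ ∃ c : F, g v = c • v ∧
    (B v v = 0 ∨ c ≠ l) := by
  by_contra h3
  push Not at h3
  obtain ⟨v, v0, c, hc⟩ := eig_two h hg h2
  obtain ⟨v1, rfl⟩ := h3 v v0 c hc
  have h4 := h.finrank_add_finrank_perp (span F {v})
  rw [finrank_span_singleton v0] at h4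
  obtain ⟨w, w1, w0, c', hc'⟩ := eig_of_one (perp_inv h hg (W := span F {v}) fun x hx => by
    obtain ⟨a, rfl⟩ := mem_span_singleton.1 hx
    rw [map_smul, hc, smul_smul]; exact mem_span_singleton.2 ⟨_, rfl⟩) (by omega)
  obtain ⟨-, rfl⟩ := h3 w w0 c' hc'
  obtain ⟨e, -, e0, e1⟩ := h.exists_isotropic_mem (W := ⊤) (by rw [finrank_top, h2])
  refine (h3 e e0 c' ?_).1 e1
  obtain ⟨a, ha, b, hb, rfl⟩ := mem_sup.1
    ((h.isCompl_perp (h.disjoint_span_singleton v1)).sup_eq_top ▸ mem_top : e ∈ _ ⊔ _)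
  obtain ⟨a, rfl⟩ := mem_span_singleton.1 ha
  obtain ⟨b, hb'⟩ := (finrank_eq_one_iff_of_nonzero' (K := F) (⟨w, w1⟩ : perp B (span F {v}))
    (fun e => w0 (congrArg Subtype.val e))).1 (by omega) ⟨b, hb⟩
  obtain rfl : b • w = _ := congrArg Subtype.val hb'
  rw [map_add, map_smul, map_smul, hc, hc', smul_add, smul_comm a, smul_comm b]

theorem four (h4 : finrank F V = 4) : (∃ v, B v v ≠ 0 ∧ ∃ c : F, g v = c • v) ∨
    ∃ W : Submodule F V, finrank F W = 2 ∧ W ≤ perp B W ∧ ∀ x ∈ W, g x ∈ W := by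
  by_contra hc
  push Not at hc
  obtain ⟨n1, n2⟩ := hc
  obtain ⟨u, u0, l, hl⟩ : ∃ v, v ≠ 0 ∧ ∃ c : F, g v = c • v := by
    obtain ⟨W, h3, h5, h6⟩ := exists_inv h hg (by omega) (h4 ▸ (by decide : Even 4))
    have := finrank_lt h6
    have := finrank_eq_zero.not.2 h5
    have := h.finrank_add_finrank_perp W
    by_cases h7 : finrank F W = 1
    · exact (eig_of_one h3 h7).imp fun _ h => h.2
    by_cases h8 : finrank F (perp B W) = 1
    · exact (eig_of_one (perp_inv h hg h3) h8).imp fun _ h => h.2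
    by_cases h9 : finrank F ↥(W ⊓ perp B W) = 1
    · exact (eig_of_one (fun x hx => mem_inf.2 ⟨h3 x hx.1, perp_inv h hg h3 x hx.2⟩) h9).imp fun _ h => h.2
    by_cases h10 : W ⊓ perp B W = ⊥
    · obtain ⟨v, v0, c, hc⟩ := eig_two (h.restrict (disjoint_iff.2 h10)) (g := g.restrict h3)
        (fun x y => hg x y) (by omega)
      exact ⟨v, fun e => v0 (Subtype.ext e), c, congrArg Subtype.val hc⟩
    have := finrank_eq_zero.not.2 h10
    obtain ⟨x, h11, h12⟩ := n2 W (by omega)
      (inf_eq_left.1 (eq_of_le_of_finrank_le inf_le_left (by omega)))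
    exact absurd (h3 x h11) h12
  have u1 : B u u = 0 := by_contra fun e => n1 u e l hl
  obtain ⟨f, f1, -⟩ := h.exists_partner u1 u0
  have f2 : B f u = 1 := by rw [← h.symm, f1, map_one]
  have h5 := h.finrank_add_finrank_perp (span F {u, f})
  rw [h.finrank_span_hyp u1 (f1 ▸ one_ne_zero)] at h5
  have l0 : ∀ x, B u x = 0 → B u (g x) = 0 := fun x hx =>
    mem_perp_singleton.1 (perp_inv h hg (W := span F {u}) (fun x hx => by
      obtain ⟨a, rfl⟩ := mem_span_singleton.1 hx
      rw [map_smul, hl, smul_smul]; exact mem_span_singleton.2 ⟨_, rfl⟩) x (mem_perp_singleton.2 hx))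
  obtain ⟨⟨w, w1⟩, w0, m, hm, h6⟩ := eig_two' (h.restrict (h.disjoint_perp_perp
    (h.disjoint_span_hyp u1 (f1 ▸ one_ne_zero))))
    (g := (g - (B f ∘ₗ g).smulRight u).restrict fun x hx => mem_perp_pair.2
      ⟨by simp [l0 x (mem_perp_pair.1 hx).1, u1], by simp [f2]⟩)
    (fun x y => by
      have e1 := l0 x (mem_perp_pair.1 x.2).1
      have e2 := l0 y (mem_perp_pair.1 y.2).1
      simp [LinearMap.restrict_apply, LinearMap.domRestrict₁₂_apply, hg, u1, e2,
        h.eq_zero_comm.1 e1]) (by omega) l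
  obtain ⟨w2, w3⟩ := mem_perp_pair.1 w1
  have h7 : g w = m • w + B f (g w) • u := by
    rw [← sub_eq_iff_eq_add]; exact congrArg Subtype.val hm
  generalize B f (g w) = c at h7
  have w4 := h.eq_zero_comm.1 w2
  by_cases h8 : B w w = 0
  · have li : LinearIndependent F ![u, w] := LinearIndependent.pair_iff.2 fun a b e => by
      have e1 : a = 0 := by simpa [f2, w3] using congrArg (B f) e
      rw [e1, zero_smul, zero_add, smul_eq_zero] at e
      exact ⟨e1, e.resolve_right fun e => w0 (Subtype.ext e)⟩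
    obtain ⟨x, h11, h12⟩ := n2 (span F {u, w}) (by
      have := finrank_span_eq_card li
      rwa [Matrix.range_cons_cons_empty] at this) (span_le.2 (by
        rintro _ (rfl | rfl) <;> exact mem_perp_pair.2 ⟨by assumption, by assumption⟩))
    obtain ⟨a, b, rfl⟩ := mem_span_pair.1 h11
    exact h12 (mem_span_pair.2 ⟨a * l + b * c, b * m, by
      rw [map_add, map_smul, map_smul, hl, h7]; module⟩)
  · have h9 := sub_ne_zero.2 (h6.resolve_left h8)
    refine n1 (w + (c / (m - l)) • u) (by simpa [u1, w2, w4] using h8) m ?_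
    rw [map_add, map_smul, hl, h7, smul_add, smul_smul, smul_smul, add_assoc, ← add_smul]
    congr 2
    field_simp
    ring

omit h hg in
theorem conj_stab {W W' : Submodule F V} {x a : sisom B} (hx : ∀ v ∈ W, x.1 v ∈ W')
    (hd : finrank F W = finrank F W') (ha : ∀ v ∈ W, a.1 v ∈ W) :
    x * a * x⁻¹ ∈ (stabSub W').subgroupOf (sisom B) := by
  have e : W.map (x.1 : V →ₗ[F] V) = W' := eq_of_le_of_finrank_eq (map_le_iff_le_comap.2 hx)
    (by rw [LinearEquiv.finrank_map_eq, hd])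
  refine Subgroup.mem_subgroupOf.2 (mem_stabSub_iff_mapsTo.2 fun v hv => ?_)
  obtain ⟨v, h1, rfl⟩ := e ▸ hv
  simpa using hx _ (ha v h1)

omit hg in
theorem cov_four (h4 : finrank F V = 4) : Cov2 (sisom B ⧸ Subgroup.center (sisom B)) := by
  have z : ∀ W : Submodule F V, Subgroup.center (sisom B) ≤ (stabSub W).subgroupOf (sisom B) :=
    fun W x hx => by
      obtain ⟨a, ha⟩ := (h.mem_center_sisom_iff (by omega) x).1 hx
      exact Subgroup.mem_subgroupOf.2 (mem_stabSub_iff_mapsTo.2 fun v hv => ha v ▸ smul_mem _ a hv)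
  obtain ⟨v₀, hv⟩ := h.exists_self_ne_zero_top (by omega)
  have n0 : ∀ v, B v v ≠ 0 → v ≠ 0 := fun v h e => h (by simp [e])
  have pp : ∀ v, B v v ≠ 0 → ∃ p, B p p ≠ 0 ∧ B p v = 0 := fun v h1 => by
    obtain ⟨p, p1, p2⟩ := h.exists_self_ne_zero_perp_of_lt (W := span F {v})
      (by rw [finrank_span_singleton (n0 v h1)]; omega)
    exact ⟨p, p2, h.eq_zero_comm.1 (mem_perp_singleton.1 p1)⟩
  have t1 : ∀ v, B v v ≠ 0 → ∃ x : sisom B, x.1 v ∈ span F {v₀} := fun v h1 => by
    obtain ⟨a, ha⟩ := h.exists_smul_norm_eq hv (h.self_fixed v)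
    obtain ⟨p, p1, p2⟩ := pp v h1
    obtain ⟨x, x1, x2⟩ := h.witt_family_sisom (u := fun _ : Unit => v) (w := fun _ => a • v₀)
      (linearIndependent_unique_iff.2 (n0 v h1)) (linearIndependent_unique_iff.2 (n0 _ (ha ▸ h1)))
      (fun _ _ => ha.symm) p1 fun _ => p2
    exact ⟨⟨x, x1⟩, x2 () ▸ mem_span_singleton.2 ⟨a, rfl⟩⟩
  have hH : (stabSub (span F {v₀})).subgroupOf (sisom B) ≠ ⊤ := fun e => by
    obtain ⟨p, p1, p2⟩ := pp v₀ hv
    obtain ⟨x, hx⟩ := t1 p p1
    obtain ⟨a, rfl⟩ := mem_span_singleton.1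
      ((Subgroup.mem_subgroupOf.1 ((Subgroup.eq_top_iff' _).1 e x) p).2 hx)
    rw [form_smul_right, p2, mul_zero] at p1
    exact p1 rfl
  obtain ⟨K, k1, k2, k3⟩ : ∃ K : Subgroup (sisom B), K ≠ ⊤ ∧ Subgroup.center _ ≤ K ∧
      ∀ (a : sisom B) (W : Submodule F V), finrank F W = 2 → W ≤ perp B W →
        (∀ v ∈ W, a.1 v ∈ W) → ∃ x, x * a * x⁻¹ ∈ K := by
    by_cases h5 : ∃ W : Submodule F V, finrank F W = 2 ∧ W ≤ perp B W
    swap
    · exact ⟨_, hH, z _, fun _ W h1 h2 => absurd ⟨W, h1, h2⟩ h5⟩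
    obtain ⟨W₀, h5, h6⟩ := h5
    obtain ⟨e, e1, e0⟩ := exists_mem_ne_zero_of_ne_bot (finrank_eq_zero.not.1 (h5 ▸ two_ne_zero))
    have e2 := mem_perp.1 (h6 e1) e e1
    obtain ⟨f, f1, f2⟩ := h.exists_partner e2 e0
    refine ⟨_, fun h7 => ?_, z W₀, fun a W h1 h2 h3 => ?_⟩
    · obtain ⟨x, x1, x2⟩ := h.exists_sisom_isotropic (by omega) e0
        (fun h => by simp [h] at f1 : f ≠ 0) e2 f2
      have := (Subgroup.mem_subgroupOf.1 ((Subgroup.eq_top_iff' _).1 h7 ⟨x, x1⟩) e).1 e1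
      rw [mem_perp.1 (h6 (x2 ▸ this)) e e1] at f1
      exact zero_ne_one f1
    · obtain ⟨x, x1, x2⟩ := h.exists_isom_map_eq h2 h6 (h1.trans h5.symm)
      have x3 := h.det_norm_one (inv_mem x1)
      obtain ⟨l, l0, l1⟩ := exists_div_eq_of_norm_one h.ne_id h.invol ((mul_comm _ _).trans x3)
      obtain ⟨y, y1, y2, y3⟩ := h.exists_hypScale e2 f2 f1 l0
      refine ⟨⟨y * x, mem_sisom.2 ⟨mul_mem y1 x1, ?_⟩⟩, conj_stab (fun v hv => ?_)
        (h1.trans h5.symm) h3⟩
      · rw [map_mul, show LinearEquiv.det y = LinearEquiv.det x⁻¹ from Units.ext (by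
          rw [y2, div_eq_iff (h.conj_ne_zero l0), ← l1]), map_inv, inv_mul_cancel]
      · have h8 : x v ∈ W₀ := x2 ▸ mem_map_of_mem hv
        change y (x v) ∈ W₀
        rw [y3, mem_perp.1 (h6 h8) e e1, mul_zero, zero_smul, add_zero]
        exact add_mem h8 (smul_mem _ _ e1)
  refine cov2_quot _ K hH k1 (z _) k2 fun a => ?_
  rcases four h (g := (a.1 : V →ₗ[F] V)) (mem_isom.1 (sisom_le_isom a.2)) h4 with
    ⟨v, v1, c, hc⟩ | ⟨W, h1, h2, h3⟩
  · obtain ⟨x, hx⟩ := t1 v v1
    refine ⟨x, Or.inl (conj_stab (W := span F {v}) (fun w hw => ?_) (by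
      rw [finrank_span_singleton (n0 v v1), finrank_span_singleton (n0 _ hv)]) fun w hw => ?_)⟩
    · obtain ⟨b, rfl⟩ := mem_span_singleton.1 hw
      rw [map_smul]; exact smul_mem _ b hx
    · obtain ⟨b, rfl⟩ := mem_span_singleton.1 hw
      rw [map_smul, show a.1 v = c • v from hc, smul_smul]; exact mem_span_singleton.2 ⟨_, rfl⟩
  · exact (k3 a W h1 h2 h3).imp fun _ => Or.inr

omit h hg in
theorem jobU4 : JobU4 := fun _ _ _ _ hF =>
  cov2_congr (psuEquiv hF 4) (cov_four (isHerm_uForm hF 4) (finrank_fin_fun _))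

end H66.Cov
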