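/- Elementary abelian TI-subgroups `V` with a special overgroup `P` (groups of `GF(2^n)`-type):
the symmetry of the relation "a conjugate of `V` lies in `P`". -/
import Cfsg.Agent.H70.Comm

set_option autoImplicit false
open Cfsg H70

namespace H66.TI

variable {G : Type*} [Group G]

/-- commutator `x y x⁻¹ y⁻¹`. -/
abbrev cm (x y : G) : G := x * y * x⁻¹ * y⁻¹

theorem cm_eq_one {x y : G} : cm x y = 1 ↔ x * y = y * x := by
  constructor
  · intro h
    calc x * y = (x * y * x⁻¹ * y⁻¹) * (y * x) := by group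
      _ = y * x := by rw [show x * y * x⁻¹ * y⁻¹ = 1 from h, one_mul]
  · intro h
    show x * y * x⁻¹ * y⁻¹ = 1
    rw [h]; group

/-- elementary abelian TI-subgroup. -/
structure ETI (V : Subgroup G) : Prop where
  sq : ∀ v ∈ V, v * v = 1
  ti : ∀ x : G, ∀ v ∈ V, v ≠ 1 → x * v * x⁻¹ ∈ V → conjBy V x = V

namespace ETI

variable {V : Subgroup G}

theorem inv (h : ETI V) {v : G} (hv : v ∈ V) : v⁻¹ = v := inv_eq_of_mul_eq_one_right (h.sq v hv)

theorem comm (h : ETI V) {v w : G} (hv : v ∈ V) (hw : w ∈ V) : v * w = w * v := by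
  have := h.inv (V.mul_mem hv hw)
  rw [mul_inv_rev, h.inv hv, h.inv hw] at this
  exact this.symm

theorem conj (h : ETI V) (g : G) : ETI (conjBy V g) where
  sq := by
    intro v hv
    have := h.sq _ (mem_conjBy.1 hv)
    calc v * v = g * ((g⁻¹ * v * g) * (g⁻¹ * v * g)) * g⁻¹ := by group
      _ = 1 := by rw [this]; group
  ti := by
    intro x v hv hv1 hx
    rw [mem_conjBy] at hv hx
    have := h.ti (g⁻¹ * x * g) _ hv (fun e => hv1 (by
      calc v = g * (g⁻¹ * v * g) * g⁻¹ := by group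
        _ = 1 := by rw [e]; group)) (by convert hx using 1; group)
    rw [conjBy_conjBy, conjBy_eq_conjBy_iff, ← conjBy_eq_self_iff, ← mul_assoc]
    exact this

/-- two conjugates with a common non-identity element are equal. -/
theorem eq_of_mem (h : ETI V) {a b x : G} (hx1 : x ≠ 1) (ha : x ∈ conjBy V a) (hb : x ∈ conjBy V b) :
    conjBy V a = conjBy V b := by
  have := (h.conj a).ti 1 x ha hx1 (by simpa using ha)
  rw [conjBy_eq_conjBy_iff, ← conjBy_eq_self_iff]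
  apply h.ti _ _ (mem_conjBy.1 ha) (fun e => hx1 (by
      calc x = a * (a⁻¹ * x * a) * a⁻¹ := by group
        _ = 1 := by rw [e]; group))
  rw [mem_conjBy] at hb
  convert hb using 1; group

theorem eq_of_mem' (h : ETI V) {a x : G} (hx1 : x ≠ 1) (ha : x ∈ conjBy V a) (hb : x ∈ V) :
    conjBy V a = V := by
  have := h.eq_of_mem hx1 ha (b := 1) (by rwa [conjBy_one])
  rwa [conjBy_one] at this

theorem conj_mem_of_comm (h : ETI V) {x v : G} (hv : v ∈ V) (hv1 : v ≠ 1) (hx : x * v = v * x)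
    {w : G} (hw : w ∈ V) : x * w * x⁻¹ ∈ V := by
  have := h.ti x v hv hv1 (by rw [hx]; simpa using hv)
  rw [← this]; exact conj_mem_conjBy x hw

end ETI

theorem card_conjBy (V : Subgroup G) (g : G) : Nat.card (conjBy V g) = Nat.card V :=
  (Nat.card_congr (V.equivMapOfInjective _ (MulAut.conj g).injective).toEquiv).symm

theorem conj_mem_of_conjBy_eq {V : Subgroup G} {x : G} (h : conjBy V x = V) {w : G} (hw : w ∈ V) :
    x * w * x⁻¹ ∈ V := by
  rw [← h]; exact conj_mem_conjBy x hw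

theorem conjBy_eq_of_conj_mem [Finite G] {V : Subgroup G} {x : G} (h : ∀ w ∈ V, x * w * x⁻¹ ∈ V) :
    conjBy V x = V :=
  conjBy_eq_self_iff.2 (Subgroup.mem_normalizer_fintype h)

theorem conjBy_eq_of_comm {V : Subgroup G} {x : G} (h : ∀ w ∈ V, x * w = w * x) :
    conjBy V x = V := by
  ext w
  rw [mem_conjBy]
  constructor
  · intro hw
    have := h _ hw
    have e : w = x⁻¹ * w * x := by
      calc w = x * (x⁻¹ * w * x) * x⁻¹ := by group
        _ = _ := by rw [this]; group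
    rwa [e]
  · intro hw
    rw [mul_assoc, ← h w hw]; simpa using hw

/-- If `U` normalizes `V` (both TI, disjoint, of the same order) then they commute. -/
theorem comm_of_norm [Finite G] {V U : Subgroup G} (hV : ETI V) (hU : ETI U)
    (hc : Nat.card V ≤ Nat.card U) (hd : ∀ x ∈ V, x ∈ U → x = 1)
    (hn : ∀ u ∈ U, ∀ v ∈ V, u * v * u⁻¹ ∈ V) : ∀ u ∈ U, ∀ v ∈ V, u * v = v * u := by
  -- an element of `V` commuting with a non-identity element of `U` centralizes `U`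
  have h0 : ∀ v ∈ V, ∀ u ∈ U, u ≠ 1 → v * u = u * v → ∀ u' ∈ U, u' * v = v * u' := by
    intro v hv u hu hu1 e u' hu'
    have h1 : cm v u' ∈ U := U.mul_mem (hU.conj_mem_of_comm hu hu1 e hu') (U.inv_mem hu')
    have h2 : cm v u' ∈ V := by
      have := V.mul_mem hv (hn u' hu' _ (V.inv_mem hv))
      convert this using 1; unfold cm; group
    exact (cm_eq_one.1 (hd _ h2 h1)).symm
  by_contra hne
  push Not at hne
  obtain ⟨u₀, hu₀, v, hv, hne⟩ := hne
  have hcmV : ∀ u ∈ U, cm u v ∈ V := fun u hu => V.mul_mem (hn u hu v hv) (V.inv_mem hv)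
  let f : U → V := fun u => ⟨cm u v, hcmV u u.2⟩
  have hinj : Function.Injective f := by
    intro a b hab
    have e : (a : G) * v * (a : G)⁻¹ = b * v * (b : G)⁻¹ := by
      have := congrArg Subtype.val hab
      exact mul_right_cancel this
    by_contra hab'
    have hba : (b : G)⁻¹ * a ≠ 1 := fun e' => hab' (Subtype.ext (inv_mul_eq_one.1 e').symm)
    apply hne
    apply h0 v hv _ (U.mul_mem (U.inv_mem b.2) a.2) hba _ u₀ hu₀
    calc v * ((b : G)⁻¹ * a) = (b : G)⁻¹ * (b * v * (b : G)⁻¹) * a := by group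
      _ = _ := by rw [← e]; group
  have hsurj : Function.Surjective f := by
    have := Fintype.ofFinite U
    have := Fintype.ofFinite V
    refine ((Fintype.bijective_iff_injective_and_card f).2 ⟨hinj, le_antisymm
      (Fintype.card_le_of_injective f hinj) ?_⟩).2
    rwa [← Nat.card_eq_fintype_card, ← Nat.card_eq_fintype_card]
  obtain ⟨u, hu⟩ := hsurj ⟨v, hv⟩
  have e : (u : G) * v * (u : G)⁻¹ * v⁻¹ = v := congrArg Subtype.val hu
  have e2 : (u : G) * v * (u : G)⁻¹ = 1 := by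
    rw [← hV.sq v hv]; exact mul_inv_eq_iff_eq_mul.1 e
  have : v = 1 := by
    calc v = (u : G)⁻¹ * ((u : G) * v * (u : G)⁻¹) * u := by group
      _ = 1 := by rw [e2]; group
  apply hne; rw [this]; simp

/-- `V` elementary abelian TI with overgroup `P` playing the part of `O₂(C(V))`. -/
structure GF (V P : Subgroup G) : Prop extends ETI V where
  le : V ≤ P
  cen : ∀ p ∈ P, ∀ v ∈ V, p * v = v * p
  norm : ∀ m : G, conjBy V m = V → conjBy P m = P
  cmV : ∀ p ∈ P, ∀ r ∈ P, cm p r ∈ V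
  psq : ∀ p ∈ P, p * p ∈ V
  ctr : ∀ y ∈ P, (∀ p ∈ P, y * p = p * y) → y ∈ V
  faith : ∀ y : G, (∀ v ∈ V, y * v = v * y) → (∀ p ∈ P, cm y p ∈ V) → y ∈ P
  big : (∀ y : G, (∀ v ∈ V, y * v = v * y) → y * y ∈ P) →
    ∀ y : G, (∀ v ∈ V, y * v = v * y) → y ∈ P
  nonab : ∀ x ∈ P, (∀ m : G, conjBy V m = V → x * (m * x * m⁻¹) = (m * x * m⁻¹) * x) → x ∈ V

theorem comm_conj_iff {g x y : G} : (g⁻¹ * x * g) * (g⁻¹ * y * g) = (g⁻¹ * y * g) * (g⁻¹ * x * g) ↔
    x * y = y * x := by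
  constructor
  · intro h
    calc x * y = g * ((g⁻¹ * x * g) * (g⁻¹ * y * g)) * g⁻¹ := by group
      _ = _ := by rw [h]; group
  · intro h
    calc (g⁻¹ * x * g) * (g⁻¹ * y * g) = g⁻¹ * (x * y) * g := by group
      _ = _ := by rw [h]; group

theorem cent_conj_iff {V : Subgroup G} {g y : G} :
    (∀ v ∈ conjBy V g, y * v = v * y) ↔ ∀ v ∈ V, (g⁻¹ * y * g) * v = v * (g⁻¹ * y * g) := by
  constructor
  · intro h v hv
    have := comm_conj_iff (g := g).2 (h _ (conj_mem_conjBy g hv))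
    rwa [show g⁻¹ * (g * v * g⁻¹) * g = v by group] at this
  · intro h v hv
    exact comm_conj_iff.1 (h _ (mem_conjBy.1 hv))

theorem conjBy_conj_eq_iff {V : Subgroup G} {g m : G} :
    conjBy (conjBy V g) m = conjBy V g ↔ conjBy V (g⁻¹ * m * g) = V := by
  rw [conjBy_conjBy, conjBy_eq_conjBy_iff, ← conjBy_eq_self_iff, ← mul_assoc]

namespace GF

variable {V P : Subgroup G}

theorem conj (h : GF V P) (g : G) : GF (conjBy V g) (conjBy P g) where
  toETI := h.toETI.conj g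
  le := conjBy_mono h.le g
  cen := fun p hp => cent_conj_iff.2 (h.cen _ (mem_conjBy.1 hp))
  norm := fun m hm => conjBy_conj_eq_iff.2 (h.norm _ (conjBy_conj_eq_iff.1 hm))
  cmV := by
    intro p hp r hr
    have := h.cmV _ (mem_conjBy.1 hp) _ (mem_conjBy.1 hr)
    rw [mem_conjBy]; convert this using 1; unfold cm; group
  psq := by
    intro p hp
    have := h.psq _ (mem_conjBy.1 hp)
    rw [mem_conjBy]; convert this using 1; group
  ctr := fun y hy hc => mem_conjBy.2 (h.ctr _ (mem_conjBy.1 hy) (cent_conj_iff.1 hc))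
  faith := by
    intro y hy hc
    refine mem_conjBy.2 (h.faith _ (cent_conj_iff.1 hy) fun p hp => ?_)
    have := mem_conjBy.1 (hc _ (conj_mem_conjBy g hp))
    convert this using 1; unfold cm; group
  big := by
    intro hb y hy
    refine mem_conjBy.2 (h.big (fun z hz => ?_) _ (cent_conj_iff.1 hy))
    have := hb (g * z * g⁻¹) (cent_conj_iff.2 (by
      rwa [show g⁻¹ * (g * z * g⁻¹) * g = z by group]))
    rw [mem_conjBy] at this
    convert this using 1; group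
  nonab := by
    intro x hx hc
    refine mem_conjBy.2 (h.nonab _ (mem_conjBy.1 hx) fun m hm => ?_)
    have := hc (g * m * g⁻¹) (conjBy_conj_eq_iff.2 (by
      rwa [show g⁻¹ * (g * m * g⁻¹) * g = m by group]))
    have h2 := comm_conj_iff (g := g).2 this
    convert h2 using 2 <;> group

theorem conj_mem (h : GF V P) {m : G} (hm : conjBy V m = V) {p : G} (hp : p ∈ P) :
    m * p * m⁻¹ ∈ P := conj_mem_of_conjBy_eq (h.norm m hm) hp

theorem conj_mem_of_cent (h : GF V P) {m : G} (hm : ∀ v ∈ V, m * v = v * m) {p : G} (hp : p ∈ P) :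
    m * p * m⁻¹ ∈ P := h.conj_mem (conjBy_eq_of_comm hm) hp

theorem cm_mul_left (h : GF V P) {x y z : G} (hx : x ∈ P) (hy : y ∈ P) (hz : z ∈ P) :
    cm (x * y) z = cm x z * cm y z := by
  calc cm (x * y) z = x * cm y z * (z * x⁻¹ * z⁻¹) := by unfold cm; group
    _ = cm y z * cm x z := by rw [h.cen x hx _ (h.cmV y hy z hz)]; unfold cm; group
    _ = _ := h.comm (h.cmV y hy z hz) (h.cmV x hx z hz)

theorem cm_symm (h : GF V P) {x y : G} (hx : x ∈ P) (hy : y ∈ P) : cm x y = cm y x := by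
  rw [← h.inv (h.cmV x hx y hy)]; unfold cm; group

theorem comm_mul_of_cm_eq (h : GF V P) {x y z : G} (hx : x ∈ P) (hy : y ∈ P) (hz : z ∈ P)
    (e : cm x z = cm y z) : x * y * z = z * (x * y) := by
  rw [← cm_eq_one, h.cm_mul_left hx hy hz, e]
  exact h.sq _ (h.cmV y hy z hz)

end GF

/-- `U` is a conjugate of `V`, different from `V`, inside `P`. -/
structure Nb (V P U : Subgroup G) : Prop where
  cl : ∃ g, U = conjBy V g
  ne : U ≠ V
  le : U ≤ P

namespace Nb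

variable {V P U : Subgroup G}

theorem conj (n : Nb V P U) (g : G) : Nb (conjBy V g) (conjBy P g) (conjBy U g) where
  cl := by
    obtain ⟨a, rfl⟩ := n.cl
    exact ⟨g * a * g⁻¹, by rw [conjBy_conjBy, conjBy_conjBy]; congr 1; group⟩
  ne := fun e => n.ne (conjBy_inj.1 e)
  le := conjBy_mono n.le g

theorem eti (h : GF V P) (n : Nb V P U) : ETI U := by
  obtain ⟨a, rfl⟩ := n.cl; exact h.toETI.conj a

theorem disj (h : GF V P) (n : Nb V P U) {x : G} (hU : x ∈ U) (hV : x ∈ V) : x = 1 := by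
  obtain ⟨a, rfl⟩ := n.cl
  by_contra hx
  exact n.ne (h.eq_of_mem' hx hU hV)

theorem card (n : Nb V P U) : Nat.card U = Nat.card V := by
  obtain ⟨a, rfl⟩ := n.cl; exact card_conjBy V a

theorem exists_ne_one [Finite G] (n : Nb V P U) : ∃ v ∈ V, v ≠ 1 := by
  by_contra hc
  push Not at hc
  have : V = ⊥ := (Subgroup.eq_bot_iff_forall V).2 hc
  obtain ⟨a, ha⟩ := n.cl
  apply n.ne
  rw [ha, this, conjBy_bot]

theorem exists_ne_one' [Finite G] (n : Nb V P U) : ∃ u ∈ U, u ≠ 1 := by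
  obtain ⟨v, hv, hv1⟩ := n.exists_ne_one
  obtain ⟨a, rfl⟩ := n.cl
  exact ⟨_, conj_mem_conjBy a hv, fun e => hv1 (conj_eq_one_iff.1 e)⟩

theorem norm (h : GF V P) (n : Nb V P U) {m : G} (hm : conjBy V m = V) : Nb V P (conjBy U m) := by
  have := n.conj m
  rwa [hm, h.norm m hm] at this

theorem cent (h : GF V P) (n : Nb V P U) {p u : G} (hp : p ∈ P) (hu : u ∈ U) (hu1 : u ≠ 1)
    (e : p * u = u * p) : ∀ w ∈ U, p * w = w * p := by
  intro w hw
  rw [← cm_eq_one]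
  exact n.disj h (U.mul_mem ((n.eti h).conj_mem_of_comm hu hu1 e hw) (U.inv_mem hw))
    (h.cmV p hp w (n.le hw))

/-- for `p ∈ P` not centralizing `U` the commutators with `U` fill `V`. -/
theorem surj [Finite G] (h : GF V P) (n : Nb V P U) {p u₀ : G} (hp : p ∈ P) (hu₀ : u₀ ∈ U)
    (hne : p * u₀ ≠ u₀ * p) {v : G} (hv : v ∈ V) : ∃ u ∈ U, cm u p = v := by
  let f : U → V := fun u => ⟨cm u p, h.cmV _ (n.le u.2) p hp⟩
  have hinj : Function.Injective f := by
    intro a b hab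
    have e : cm (a : G) p = cm (b : G) p := congrArg Subtype.val hab
    have e2 := h.comm_mul_of_cm_eq (n.le a.2) (n.le b.2) hp e
    by_contra hab'
    refine hne (n.cent h hp (U.mul_mem a.2 b.2) (fun e' => hab' (Subtype.ext ?_)) e2.symm u₀ hu₀)
    rw [← (n.eti h).inv b.2]; exact eq_inv_of_mul_eq_one_left e'
  have hsurj : Function.Surjective f := by
    have := Fintype.ofFinite U
    have := Fintype.ofFinite V
    refine ((Fintype.bijective_iff_injective_and_card f).2 ⟨hinj, ?_⟩).2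
    rw [← Nat.card_eq_fintype_card, ← Nat.card_eq_fintype_card, n.card]
  obtain ⟨u, hu⟩ := hsurj ⟨v, hv⟩
  exact ⟨u, u.2, congrArg Subtype.val hu⟩

/-- there is a second neighbour not commuting with `U`. -/
theorem exists_opp [Finite G] (h : GF V P) (n : Nb V P U) :
    ∃ U₂, Nb V P U₂ ∧ ∀ u ∈ U, u ≠ 1 → ∀ w ∈ U₂, w ≠ 1 → u * w ≠ w * u := by
  obtain ⟨u₀, hu₀, hu1⟩ := n.exists_ne_one'
  have : ¬ ∀ m : G, conjBy V m = V → u₀ * (m * u₀ * m⁻¹) = (m * u₀ * m⁻¹) * u₀ :=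
    fun hc => hu1 (n.disj h hu₀ (h.nonab u₀ (n.le hu₀) hc))
  push Not at this
  obtain ⟨m, hm, hne⟩ := this
  have n₂ := n.norm h hm
  refine ⟨_, n₂, fun u hu hu1' w hw hw1 e => hne ?_⟩
  have h1 := n.cent h (n₂.le hw) hu hu1' e.symm u₀ hu₀
  exact n₂.cent h (n.le hu₀) hw hw1 h1.symm _ (conj_mem_conjBy m hu₀)

theorem surj' [Finite G] (h : GF V P) (n : Nb V P U) {u : G} (hu : u ∈ U) (hu1 : u ≠ 1) {v : G}
    (hv : v ∈ V) : ∃ p ∈ P, cm p u = v := by
  obtain ⟨U₂, n₂, hopp⟩ := n.exists_opp h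
  obtain ⟨w₀, hw₀, hw1⟩ := n₂.exists_ne_one'
  obtain ⟨w, hw, e⟩ := n₂.surj h (n.le hu) hw₀ (hopp u hu hu1 w₀ hw₀ hw1) hv
  exact ⟨w, n₂.le hw, e⟩

/-- `P = C_P(U) U₂`. -/
theorem decomp [Finite G] (h : GF V P) (n : Nb V P U) {U₂ : Subgroup G} (n₂ : Nb V P U₂)
    (hopp : ∀ u ∈ U, u ≠ 1 → ∀ w ∈ U₂, w ≠ 1 → u * w ≠ w * u) {p : G} (hp : p ∈ P) :
    ∃ w ∈ U₂, ∀ u ∈ U, p * w * u = u * (p * w) := by
  obtain ⟨u₀, hu₀, hu1⟩ := n.exists_ne_one'
  obtain ⟨w₀, hw₀, hw1⟩ := n₂.exists_ne_one'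
  obtain ⟨w, hw, e⟩ := n₂.surj h (n.le hu₀) hw₀ (hopp u₀ hu₀ hu1 w₀ hw₀ hw1)
    (h.cmV p hp u₀ (n.le hu₀))
  exact ⟨w, hw, n.cent h (P.mul_mem hp (n₂.le hw)) hu₀ hu1
    (h.comm_mul_of_cm_eq hp (n₂.le hw) (n.le hu₀) e.symm)⟩

/-- the double centralizer of `U` in `P` is `V U`. -/
theorem cent_cent [Finite G] (h : GF V P) (n : Nb V P U) {x : G} (hx : x ∈ P)
    (hc : ∀ r ∈ P, (∀ u ∈ U, r * u = u * r) → x * r = r * x) : ∃ u ∈ U, x * u ∈ V := by
  obtain ⟨U₂, n₂, hopp⟩ := n.exists_opp h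
  obtain ⟨u₀, hu₀, hu1⟩ := n.exists_ne_one'
  obtain ⟨w₀, hw₀, hw1⟩ := n₂.exists_ne_one'
  obtain ⟨u, hu, e⟩ := n.surj h (n₂.le hw₀) hu₀ (hopp u₀ hu₀ hu1 w₀ hw₀ hw1).symm
    (h.cmV x hx w₀ (n₂.le hw₀))
  have hxu : x * u ∈ P := P.mul_mem hx (n.le hu)
  have h1 := n₂.cent h hxu hw₀ hw1 (h.comm_mul_of_cm_eq hx (n.le hu) (n₂.le hw₀) e.symm)
  refine ⟨u, hu, h.ctr _ hxu fun p hp => ?_⟩
  obtain ⟨w, hw, hw'⟩ := n.decomp h n₂ hopp hp
  have h2 : Commute (x * u) (p * w) :=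
    Commute.mul_left (hc _ (P.mul_mem hp (n₂.le hw)) hw') (hw' u hu).symm
  have h3 : Commute (x * u) w := h1 w hw
  have := h2.mul_right h3.inv_right
  rwa [mul_inv_cancel_right] at this

end Nb

end H66.TI
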