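/- Groups of `GF(2^n)`-type: if `V^g ≤ P` then `V ≤ P^g`. -/
import Cfsg.Agent.H66.GF1

set_option autoImplicit false
open Cfsg H70

namespace H66.TI

variable {G : Type*} [Group G]

theorem caseA [Finite G] {V P : Subgroup G} (h : GF V P) {g : G} (n : Nb V P (conjBy V g))
    {m v u : G} (hm : conjBy (conjBy V g) m = conjBy V g) (hv : v ∈ V) (hv1 : v ≠ 1)
    (hu : u ∈ conjBy V g) (hu1 : u ≠ 1) (e : m * v * m⁻¹ = v * u) : V ≤ conjBy P g := by
  obtain ⟨p, hp, hpu⟩ := n.surj' h hu hu1 hv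
  have e2 : p * u * p⁻¹ = v * u := mul_inv_eq_iff_eq_mul.1 hpu
  have h1 : conjBy V m = conjBy V (p * g) := by
    refine h.eq_of_mem (x := m * v * m⁻¹) (fun e' => hv1 (conj_eq_one_iff.1 e'))
      (conj_mem_conjBy m hv) ?_
    rw [← conjBy_conjBy, e, ← e2]; exact conj_mem_conjBy p hu
  have h2 : conjBy P m = conjBy (conjBy P g) p := by
    rw [conjBy_conjBy, conjBy_eq_conjBy_iff, ← conjBy_eq_self_iff]
    apply h.norm
    rwa [conjBy_eq_self_iff, ← conjBy_eq_conjBy_iff]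
  have h3 : conjBy V g ≤ conjBy (conjBy P g) p := by
    rw [← h2, ← hm]; exact conjBy_mono n.le m
  intro w hw
  have hne : p⁻¹ * u ≠ u * p⁻¹ := by
    intro e'
    apply hv1
    rw [← hpu, cm_eq_one]
    exact (Commute.inv_left_iff.1 e' : Commute p u)
  obtain ⟨u', hu', e'⟩ := n.surj h (P.inv_mem hp) hu hne hw
  have h4 := mem_conjBy.1 (h3 ((conjBy V g).inv_mem hu'))
  have h5 := (conjBy P g).mul_mem ((h.conj g).le hu') h4
  rw [← e']; convert h5 using 1; unfold cm; group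

/-- `P = V A B` with two opposite neighbours. -/
structure Sm (V P A B : Subgroup G) : Prop where
  nA : Nb V P A
  nB : Nb V P B
  opp : ∀ a ∈ A, a ≠ 1 → ∀ b ∈ B, b ≠ 1 → a * b ≠ b * a
  dec : ∀ p ∈ P, ∃ a ∈ A, ∃ b ∈ B, p * a * b ∈ V

/-- membership in `V A`. -/
def In (V A : Subgroup G) (p : G) : Prop := ∃ a ∈ A, p * a ∈ V

theorem In.of_mem {V A : Subgroup G} {p : G} (hp : p ∈ V) : In V A p := ⟨1, A.one_mem, by simpa⟩

namespace Sm

variable {V P A B : Subgroup G}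

theorem symm (h : GF V P) (s : Sm V P A B) : Sm V P B A where
  nA := s.nB
  nB := s.nA
  opp := fun b hb hb1 a ha ha1 e => s.opp a ha ha1 b hb hb1 e.symm
  dec := by
    intro p hp
    obtain ⟨a, ha, b, hb, e⟩ := s.dec p hp
    refine ⟨b, hb, a, ha, ?_⟩
    have := V.mul_mem e (h.cmV _ (P.inv_mem (s.nB.le hb)) _ (P.inv_mem (s.nA.le ha)))
    convert this using 1; unfold cm; group

theorem invol (h : GF V P) (s : Sm V P A B) {p : G} (hp : p ∈ P) (hpp : p * p = 1) :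
    In V A p ∨ In V B p := by
  obtain ⟨a, ha, b, hb, e⟩ := s.dec p hp
  by_cases ha1 : a = 1
  · right; exact ⟨b, hb, by simpa [ha1] using e⟩
  by_cases hb1 : b = 1
  · left; exact ⟨a, ha, by simpa [hb1] using e⟩
  exfalso
  apply s.opp a ha ha1 b hb hb1
  have hab : a * b ∈ P := P.mul_mem (s.nA.le ha) (s.nB.le hb)
  have h1 := h.sq _ e
  have h2 := h.cen _ hab _ e
  have h3 : a * b * (a * b) = 1 := by
    calc a * b * (a * b) = p * p * (a * b) * (a * b) := by rw [hpp, one_mul]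
      _ = p * ((p * a * b) * (a * b)) := by group
      _ = p * (a * b * (p * a * b)) := by rw [h2]
      _ = (p * a * b) * (p * a * b) := by group
      _ = 1 := h1
  have := inv_eq_of_mul_eq_one_right h3
  rw [mul_inv_rev, (s.nA.eti h).inv ha, (s.nB.eti h).inv hb] at this
  exact this.symm

theorem comm_In (h : GF V P) (n : Nb V P A) {x y : G} (hx : In V A x) (hy : In V A y) :
    x * y = y * x := by
  obtain ⟨a, ha, e⟩ := hx
  obtain ⟨b, hb, f⟩ := hy
  have c1 : Commute (x * a) (y * b) := h.comm e f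
  have c2 : Commute (x * a) b := (h.cen b (n.le hb) _ e).symm
  have c3 : Commute a (y * b) := h.cen a (n.le ha) _ f
  have c4 : Commute a b := (n.eti h).comm ha hb
  have := (c1.mul_right c2.inv_right).mul_left (c3.mul_right c4.inv_right).inv_left
  simpa using this.eq

theorem not_comm_In (h : GF V P) (s : Sm V P A B) {x y : G} (hx : In V A x) (hx' : x ∉ V)
    (hy : In V B y) (hy' : y ∉ V) : x * y ≠ y * x := by
  intro hc
  obtain ⟨a, ha, e⟩ := hx
  obtain ⟨b, hb, f⟩ := hy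
  have hxP : x ∈ P := by
    have := P.mul_mem (h.le e) (P.inv_mem (s.nA.le ha)); simpa using this
  refine s.opp a ha (fun e' => hx' (by simpa [e'] using e)) b hb
    (fun e' => hy' (by simpa [e'] using f)) ?_
  have c1 : Commute (x * a) b := (h.cen b (s.nB.le hb) _ e).symm
  have c2 : Commute x (y * b) := h.cen x hxP _ f
  have c3 : Commute x y := hc
  have c4 : Commute x b := by simpa using (c3.inv_right.mul_right c2)
  simpa using (c4.inv_left.mul_left c1).eq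

theorem notMem_conj {y x : G} (hy : ∀ v ∈ V, y * v = v * y) (hx : x ∉ V) : y * x * y⁻¹ ∉ V := by
  intro hc
  apply hx
  have := hy _ hc
  have e : x = y * x * y⁻¹ := by
    calc x = y⁻¹ * (y * x * y⁻¹ * y) := by group
      _ = _ := by rw [← this]; group
  rwa [e]

theorem conj_invol (h : GF V P) (s : Sm V P A B) {y : G} (hy : ∀ v ∈ V, y * v = v * y) {a : G}
    (ha : a ∈ A) : In V A (y * a * y⁻¹) ∨ In V B (y * a * y⁻¹) := by
  apply s.invol h (h.conj_mem_of_cent hy (s.nA.le ha))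
  calc y * a * y⁻¹ * (y * a * y⁻¹) = y * (a * a) * y⁻¹ := by group
    _ = 1 := by rw [(s.nA.eti h).sq a ha]; group

theorem dich (h : GF V P) (s : Sm V P A B) {y : G} (hy : ∀ v ∈ V, y * v = v * y) :
    (∀ a ∈ A, In V A (y * a * y⁻¹)) ∨ (∀ a ∈ A, In V B (y * a * y⁻¹)) := by
  by_contra hc
  push Not at hc
  obtain ⟨⟨a, ha, h1⟩, ⟨b, hb, h2⟩⟩ := hc
  refine s.not_comm_In h ((s.conj_invol h hy hb).resolve_right h2) (fun e => h2 (In.of_mem e))
    ((s.conj_invol h hy ha).resolve_left h1) (fun e => h1 (In.of_mem e)) ?_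
  have := (s.nA.eti h).comm hb ha
  calc y * b * y⁻¹ * (y * a * y⁻¹) = y * (b * a) * y⁻¹ := by group
    _ = _ := by rw [this]; group

theorem other [Finite G] (h : GF V P) (s : Sm V P A B) {y : G} (_hy : ∀ v ∈ V, y * v = v * y)
    {C D : Subgroup G} (nC : Nb V P C) (hCD : ∀ b ∈ B, In V C (y * b * y⁻¹) ∨ In V D (y * b * y⁻¹))
    (hA : ∀ a ∈ A, In V C (y * a * y⁻¹)) : ∀ b ∈ B, In V D (y * b * y⁻¹) := by
  intro b hb
  by_cases hb1 : b = 1
  · apply In.of_mem; simp [hb1]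
  obtain ⟨a, ha, ha1⟩ := s.nA.exists_ne_one'
  refine (hCD b hb).resolve_left fun hc => s.opp a ha ha1 b hb hb1 ?_
  have := comm_In h nC (hA a ha) hc
  calc a * b = y⁻¹ * (y * a * y⁻¹ * (y * b * y⁻¹)) * y := by group
    _ = _ := by rw [this]; group

theorem In_conj {y x : G} (hy : ∀ v ∈ V, y * v = v * y) {C D : Subgroup G} (hx : In V C x)
    (hC : ∀ c ∈ C, In V D (y * c * y⁻¹)) : In V D (y * x * y⁻¹) := by
  obtain ⟨c, hc, e⟩ := hx
  obtain ⟨d, hd, f⟩ := hC _ (C.inv_mem hc)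
  refine ⟨d, hd, ?_⟩
  have := V.mul_mem e f
  rw [← mul_inv_eq_iff_eq_mul.2 (hy _ e)] at this
  convert this using 1; group

theorem fixA [Finite G] (h : GF V P) (s : Sm V P A B) {T : Subgroup G} (hT : ETI T)
    (hc : Nat.card V ≤ Nat.card T) (hTV : ∀ t ∈ T, ∀ v ∈ V, t * v = v * t)
    (hTP : ∀ t ∈ T, t ∈ P → t = 1)
    (hB : ∀ x ∈ P, ∀ t ∈ T, t ≠ 1 → cm t x ∈ V → t * x = x * t) {t : G} (ht : t ∈ T) (ht1 : t ≠ 1)
    (hA : ∀ a ∈ A, In V A (t * a * t⁻¹)) : ∀ a ∈ A, t * a = a * t := by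
  have eA := s.nA.eti h
  obtain ⟨a, ha, ha1, hat⟩ : ∃ a ∈ A, a ≠ 1 ∧ t * a = a * t := by
    obtain ⟨a₀, ha₀, ha1⟩ := s.nA.exists_ne_one'
    obtain ⟨a₁, ha₁, e⟩ := hA a₀ ha₀
    by_cases h01 : a₀ * a₁ = 1
    · refine ⟨a₀, ha₀, ha1, hB a₀ (s.nA.le ha₀) t ht ht1 ?_⟩
      rwa [eq_inv_of_mul_eq_one_right h01] at e
    · refine ⟨a₀ * a₁, A.mul_mem ha₀ ha₁, h01, ?_⟩
      have h1 := hTV t ht _ e
      have h2 : t * a₀ * t⁻¹ * a₁ = a₀ * (t * a₁ * t⁻¹) := by
        calc t * a₀ * t⁻¹ * a₁ = t * (t * a₀ * t⁻¹ * a₁) * t⁻¹ := by rw [h1]; group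
          _ = (t * t) * a₀ * (t⁻¹ * a₁ * t⁻¹) := by group
          _ = _ := by rw [hT.sq t ht, one_mul, hT.inv ht]
      have h3 := h.sq _ e
      have h4 : t * (a₀ * a₁) * t⁻¹ * (a₁ * a₀)⁻¹⁻¹ = 1 := by
        have c1 := h.cen a₀ (s.nA.le ha₀) _ e
        have c2 := h.cen a₁ (s.nA.le ha₁) _ e
        set w := t * a₀ * t⁻¹ * a₁ with hw
        have e1 : t * a₀ * t⁻¹ = w * a₁⁻¹ := by rw [hw]; group
        have e2 : t * a₁ * t⁻¹ = a₀⁻¹ * w := by rw [h2]; group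
        have c3 : Commute w a₀ := c1.symm
        have c4 : Commute w a₁ := c2.symm
        calc t * (a₀ * a₁) * t⁻¹ * (a₁ * a₀)⁻¹⁻¹
            = (t * a₀ * t⁻¹) * (t * a₁ * t⁻¹) * (a₁ * a₀) := by group
          _ = w * (a₁⁻¹ * a₀⁻¹ * w) * (a₁ * a₀) := by rw [e1, e2]; group
          _ = (w * w) * (a₁⁻¹ * a₀⁻¹ * (a₁ * a₀)) := by
            rw [← (c4.inv_right.mul_right c3.inv_right).eq]; group
          _ = 1 := by rw [h3, ← eA.comm ha₀ ha₁]; group
      rw [← cm_eq_one]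
      unfold cm
      rw [mul_inv_rev, eA.inv ha₁, eA.inv ha₀]
      rwa [inv_inv] at h4
  have h1 : ∀ t' ∈ T, t' * a = a * t' := by
    intro t' ht'
    symm; rw [← cm_eq_one]
    apply hTP
    · exact T.mul_mem (hT.conj_mem_of_comm ht ht1 hat.symm ht') (T.inv_mem ht')
    · have := P.mul_mem (s.nA.le ha) (h.conj_mem_of_cent (hTV t' ht') (P.inv_mem (s.nA.le ha)))
      convert this using 1; unfold cm; group
  exact comm_of_norm eA hT (s.nA.card ▸ hc) (fun x hx hxT => hTP x hxT (s.nA.le hx))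
    (fun t' ht' x hx => eA.conj_mem_of_comm ha ha1 (h1 t' ht') hx) t ht

theorem cm_mem (h : GF V P) (s : Sm V P A B) {z : G} (hz : ∀ v ∈ V, z * v = v * z)
    (hA : ∀ a ∈ A, cm z a ∈ V) (hB : ∀ b ∈ B, cm z b ∈ V) : z ∈ P := by
  refine h.faith z hz fun p hp => ?_
  obtain ⟨a, ha, b, hb, e⟩ := s.dec p hp
  have h1 := hz _ e
  have h2 := hA _ (A.inv_mem ha)
  have h3 := hB _ (B.inv_mem hb)
  have h4 := h.cen _ (P.mul_mem hp (s.nA.le ha)) _ h2
  have h5 := h.cen _ (h.le e) _ h3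
  have := V.mul_mem h3 h2
  convert this using 1
  calc cm z p = z * (p * a * b) * b⁻¹ * a⁻¹ * z⁻¹ * p⁻¹ := by unfold cm; group
    _ = (p * a * b * cm z b⁻¹) * b⁻¹ * (cm z a⁻¹) * (p * a)⁻¹ := by rw [h1]; unfold cm; group
    _ = cm z b⁻¹ * (p * a * cm z a⁻¹) * (p * a)⁻¹ := by rw [h5]; group
    _ = _ := by rw [h4]; group

theorem false [Finite G] (h : GF V P) (s : Sm V P A B) {k : G}
    (hTV : ∀ t ∈ conjBy V k, ∀ v ∈ V, t * v = v * t) (hTP : ∀ t ∈ conjBy V k, t ∈ P → t = 1)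
    (hB : ∀ x ∈ P, ∀ t ∈ conjBy V k, t ≠ 1 → cm t x ∈ V → t * x = x * t) : False := by
  have hT := h.toETI.conj k
  have hc := (card_conjBy V k).ge
  set T := conjBy V k with hTdef
  have s' := s.symm h
  have h1 : ∀ t ∈ T, t ≠ 1 → ¬ ∀ a ∈ A, In V A (t * a * t⁻¹) := by
    intro t ht ht1 hA
    have hB' := s.other h (hTV t ht) s.nA (fun b hb => (s'.conj_invol h (hTV t ht) hb).symm) hA
    apply ht1
    apply hTP t ht
    refine s.cm_mem h (hTV t ht) (fun a ha => ?_) (fun b hb => ?_)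
    · rw [cm_eq_one.2 (s.fixA h hT hc hTV hTP hB ht ht1 hA a ha)]; exact V.one_mem
    · rw [cm_eq_one.2 (s'.fixA h hT hc hTV hTP hB ht ht1 hB' b hb)]; exact V.one_mem
  have hsw : ∀ y y' : G, (∀ v ∈ V, y * v = v * y) → (∀ v ∈ V, y' * v = v * y') →
      (∀ a ∈ A, In V B (y * a * y⁻¹)) → (∀ a ∈ A, In V B (y' * a * y'⁻¹)) →
      ∀ a ∈ A, In V A (y * y' * a * (y * y')⁻¹) := by
    intro y y' hy hy' h2 h3 a ha
    have := In_conj hy (h3 a ha) (s.other h hy s.nB (fun b hb => s'.conj_invol h hy hb) h2)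
    convert this using 1; group
  have h2 : ∀ t ∈ T, t ≠ 1 → ∀ t' ∈ T, t' ≠ 1 → t = t' := by
    intro t ht ht1 t' ht' ht1'
    by_contra hne
    refine h1 (t * t') (T.mul_mem ht ht') (fun e => hne ?_)
      (hsw t t' (hTV t ht) (hTV t' ht') ((s.dich h (hTV t ht)).resolve_left (h1 t ht ht1))
        ((s.dich h (hTV t' ht')).resolve_left (h1 t' ht' ht1')))
    rw [← hT.inv ht']; exact eq_inv_of_mul_eq_one_left e
  have h3 : ∀ {C : Subgroup G}, Nb V P C → ∀ c ∈ C, c ≠ 1 → ∀ c' ∈ C, c' ≠ 1 → c = c' := by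
    intro C n c hc hc1 c' hc' hc1'
    obtain ⟨a, rfl⟩ := n.cl
    have := h2 _ (conj_mem_conjBy k (mem_conjBy.1 hc)) (fun e => hc1 (by
      have := conj_eq_one_iff.1 e
      calc c = a * (a⁻¹ * c * a) * a⁻¹ := by group
        _ = 1 := by rw [this]; group)) _ (conj_mem_conjBy k (mem_conjBy.1 hc')) (fun e => hc1' (by
      have := conj_eq_one_iff.1 e
      calc c' = a * (a⁻¹ * c' * a) * a⁻¹ := by group
        _ = 1 := by rw [this]; group))
    simpa using this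
  have h4 : ∀ {C : Subgroup G}, Nb V P C → ∀ z : G, (∀ v ∈ V, z * v = v * z) →
      (∀ c ∈ C, In V C (z * c * z⁻¹)) → ∀ c ∈ C, cm z c ∈ V := by
    intro C n z hz hC c hc
    by_cases hc1 : c = 1
    · simp [cm, hc1]
    obtain ⟨c', hc', e⟩ := hC c hc
    by_cases hc1' : c' = 1
    · exact absurd (by simpa [hc1'] using e)
        (notMem_conj hz fun hcV => hc1 (n.disj h hc hcV))
    rw [← h3 n c hc hc1 c' hc' hc1'] at e
    unfold cm
    rwa [(n.eti h).inv hc]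
  obtain ⟨v, hv, hv1⟩ := s.nA.exists_ne_one
  refine hv1 (conj_eq_one_iff.1 (hTP _ (conj_mem_conjBy k hv) ?_))
  refine h.big (fun y hy => ?_) _ (hTV _ (conj_mem_conjBy k hv))
  have hyy : ∀ v ∈ V, y * y * v = v * (y * y) := fun v hv =>
    Commute.mul_left (hy v hv) (hy v hv)
  have hA : ∀ a ∈ A, In V A (y * y * a * (y * y)⁻¹) := by
    rcases s.dich h hy with h5 | h5
    · intro a ha
      have := In_conj hy (h5 a ha) h5
      convert this using 1; group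
    · exact hsw y y hy hy h5 h5
  exact s.cm_mem h hyy (h4 s.nA _ hyy hA) (h4 s.nB _ hyy
    (s.other h hyy s.nA (fun b hb => (s'.conj_invol h hyy hb).symm) hA))

end Sm

/-- **Symmetry**: if `V^g ≤ P` then `V ≤ P^g`. -/
theorem Nb.symm_le [Finite G] {V P : Subgroup G} (h : GF V P) {g : G} (n : Nb V P (conjBy V g)) :
    V ≤ conjBy P g := by
  have h₁ := h.conj g
  set U := conjBy V g with hU
  set P₁ := conjBy P g with hP₁
  have hVU : ∀ v ∈ V, ∀ u ∈ U, v * u = u * v := fun v hv u hu => (h.cen u (n.le hu) v hv).symm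
  by_cases hA : ∃ x ∈ P₁, ∃ v ∈ V, v ≠ 1 ∧ cm v x ∈ U ∧ v * x ≠ x * v
  · obtain ⟨x, hx, v, hv, hv1, hc, hne⟩ := hA
    refine caseA h n (m := x) (conjBy_eq_of_comm (h₁.cen x hx)) hv hv1 hc
      (fun e => hne (cm_eq_one.1 e)) ?_
    unfold cm
    rw [h.inv hv, ← mul_assoc, ← mul_assoc, ← mul_assoc, h.sq v hv, one_mul]
  push Not at hA
  exfalso
  have B0 : ∀ v ∈ V, v ∈ P₁ → v = 1 := by
    intro v hv hvP
    by_contra hv1
    exact hv1 (n.disj h (h₁.ctr v hvP fun x hx => hA x hx v hv hv1 (h₁.cmV v hvP x hx)) hv)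
  have B1 : ∀ x ∈ P₁, ∀ v ∈ V, v ≠ 1 → cm v x ∈ U → ∀ w ∈ V, x * w = w * x := by
    intro x hx v hv hv1 hc w hw
    rw [← cm_eq_one]
    apply B0
    · exact V.mul_mem (h.conj_mem_of_comm hv hv1 (hA x hx v hv hv1 hc).symm hw) (V.inv_mem hw)
    · have := P₁.mul_mem hx (h₁.conj_mem_of_cent (hVU w hw) (P₁.inv_mem hx))
      convert this using 1; unfold cm; group
  have hcm : ∀ r : G, (∀ u ∈ U, r * u = u * r) → ∀ x ∈ P₁, cm r x ∈ P₁ := fun r hr x hx =>
    P₁.mul_mem (h₁.conj_mem_of_cent hr hx) (P₁.inv_mem hx)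
  have B2 : ∀ x ∈ P, x ∈ P₁ → x ∈ U := by
    intro x hx hx₁
    obtain ⟨u, hu, e⟩ := n.cent_cent h hx fun r hr hrU =>
      (cm_eq_one.1 (B0 _ (h.cmV r hr x hx) (hcm r hrU x hx₁))).symm
    have := B0 _ e (P₁.mul_mem hx₁ (h₁.le hu))
    rw [eq_inv_of_mul_eq_one_left this]; exact U.inv_mem hu
  have B3 : ∀ r ∈ P, (∀ u ∈ U, r * u = u * r) → ∀ y ∈ P₁, (∀ w ∈ V, y * w = w * y) →
      cm r y ∈ U := by
    intro r hr hrU y hy hyV
    apply B2 _ _ (hcm r hrU y hy)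
    have := P.mul_mem hr (h.conj_mem_of_cent hyV (P.inv_mem hr))
    convert this using 1; unfold cm; group
  obtain ⟨v, hv, hv1⟩ := n.exists_ne_one
  have B4 : ∀ x ∈ P₁, ∀ w ∈ V, cm v x * w = w * cm v x := by
    intro x hx
    have hd := hcm v (hVU v hv) x hx
    apply B1 _ hd v hv hv1
    have := U.inv_mem (h₁.psq _ hd)
    convert this using 1
    have e : v * cm v x * v⁻¹ = (cm v x)⁻¹ := by
      calc v * cm v x * v⁻¹ = (v * v) * x * v⁻¹ * x⁻¹ * v⁻¹ := by unfold cm; group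
        _ = x * v⁻¹⁻¹ * x⁻¹ * v⁻¹ := by rw [h.sq v hv, one_mul, inv_inv, h.inv hv]
        _ = x * v * x⁻¹ * v⁻¹ := by rw [inv_inv]
        _ = _ := by unfold cm; group
    calc cm v (cm v x) = (v * cm v x * v⁻¹) * (cm v x)⁻¹ := rfl
      _ = _ := by rw [e]; group
  have B5 : ∀ r ∈ P, (∀ u ∈ U, r * u = u * r) → ∀ x ∈ P₁, ∀ w ∈ V, cm r x * w = w * cm r x := by
    intro r hr hrU x hx
    have he := hcm r hrU x hx
    have hd := hcm v (hVU v hv) x hx
    apply B1 _ he v hv hv1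
    have := U.mul_mem (B3 r hr hrU _ hd (B4 x hx)) (h₁.cmV _ hd _ he)
    convert this using 1
    have c := h.cen r hr v hv
    have c' : v * r⁻¹ = r⁻¹ * v := (Commute.inv_right (c.symm : Commute v r)).eq
    calc cm v (cm r x) = (v * r) * x * r⁻¹ * x⁻¹ * v⁻¹ * (cm r x)⁻¹ := by unfold cm; group
      _ = r * (v * x * v⁻¹) * (v * r⁻¹) * x⁻¹ * v⁻¹ * (cm r x)⁻¹ := by rw [← c]; group
      _ = _ := by rw [c']; unfold cm; group
  have B6 : ∀ r ∈ P, (∀ u ∈ U, r * u = u * r) → ∀ r' ∈ P, (∀ u ∈ U, r' * u = u * r') →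
      r * r' = r' * r := by
    intro r hr hrU r' hr' hrU'
    rw [← cm_eq_one]
    have hz := h.cmV r hr r' hr'
    refine B0 _ hz (h₁.faith _ (hVU _ hz) fun x hx => ?_)
    have hi : ∀ u ∈ U, (r' * r)⁻¹ * u = u * (r' * r)⁻¹ := fun u hu =>
      (Commute.mul_left (hrU' u hu) (hrU u hu)).inv_left
    have hy := h₁.conj_mem_of_cent hi hx
    set y := (r' * r)⁻¹ * x * (r' * r)⁻¹⁻¹ with hydef
    have hxy : x = (r' * r) * y * (r' * r)⁻¹ := by rw [hydef]; group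
    have he := hcm r hrU y hy
    have he' := hcm r' hrU' y hy
    have := U.mul_mem (U.mul_mem (B3 r hr hrU _ he' (B5 r' hr' hrU' y hy)) (h₁.cmV _ he' _ he))
      (U.inv_mem (B3 r' hr' hrU' _ he (B5 r hr hrU y hy)))
    rw [hxy]
    convert this using 1; unfold cm; group
  obtain ⟨U₂, n₂, hopp⟩ := n.exists_opp h
  have s : Sm V P U U₂ :=
    { nA := n
      nB := n₂
      opp := hopp
      dec := by
        intro p hp
        obtain ⟨w, hw, e⟩ := n.decomp h n₂ hopp hp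
        have hpw := P.mul_mem hp (n₂.le hw)
        obtain ⟨u, hu, f⟩ := n.cent_cent h hpw fun r hr hrU => B6 _ hpw e r hr hrU
        refine ⟨u, hu, w, hw, ?_⟩
        have := V.mul_mem f (h.cmV _ (P.inv_mem (n.le hu)) _ (P.inv_mem (n₂.le hw)))
        convert this using 1; unfold cm; group }
  refine s.false h (k := g⁻¹) ?_ ?_ ?_
  · intro t ht w hw
    rw [mem_conjBy, inv_inv] at ht
    have := hVU _ ht _ (conj_mem_conjBy g hw)
    calc t * w = g⁻¹ * (g * t * g⁻¹ * (g * w * g⁻¹)) * g := by group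
      _ = _ := by rw [this]; group
  · intro t ht htP
    rw [mem_conjBy, inv_inv] at ht
    exact conj_eq_one_iff.1 (B0 _ ht (conj_mem_conjBy g htP))
  · intro x hx t ht ht1 hc
    rw [mem_conjBy, inv_inv] at ht
    have := hA _ (conj_mem_conjBy g hx) _ ht (fun e => ht1 (conj_eq_one_iff.1 e)) (by
      have := conj_mem_conjBy g hc
      convert this using 1; unfold cm; group)
    calc t * x = g⁻¹ * (g * t * g⁻¹ * (g * x * g⁻¹)) * g := by group
      _ = _ := by rw [this]; group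

theorem Nb.symm [Finite G] {V P : Subgroup G} (h : GF V P) {g : G} (n : Nb V P (conjBy V g)) :
    Nb (conjBy V g) (conjBy P g) V where
  cl := ⟨g⁻¹, (conjBy_inv_cancel V g).symm⟩
  ne := n.ne.symm
  le := n.symm_le h

end H66.TI
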