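/- A group generated by the shears of a spread with all shears induces `SL₂(F)`. -/
import Cfsg.Agent.H89.Spread
import Cfsg.Agent.H70.SL2Fin

set_option autoImplicit false
open Matrix MatrixGroups

namespace H66.TI

variable {H M ι : Type*} [Group H] [AddCommGroup M] [DistribMulAction H M]

/-- `h` is a shear with axis `A`. -/
def Shear (A : AddSubgroup M) (h : H) : Prop := (∀ w, h • w - w ∈ A) ∧ ∀ w ∈ A, h • w = w

/-- the maps `w ↦ h • w - w` for shears `h` with axis `A`. -/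
def shearMaps (H : Type*) [Group H] [DistribMulAction H M] (A : AddSubgroup M) :
    AddSubgroup (AddMonoid.End M) where
  carrier := {φ | ∃ h : H, Shear A h ∧ ∀ w, φ w = h • w - w}
  zero_mem' := ⟨1, ⟨fun w => by simp, fun w _ => one_smul _ _⟩, fun w => by simp⟩
  add_mem' := by
    rintro φ ψ ⟨h, hh, e⟩ ⟨k, hk, f⟩
    have key : ∀ w : M, (h * k) • w - w = (h • w - w) + (k • w - w) := by
      intro w
      have := hh.2 _ (hk.1 w)
      rw [smul_sub] at this
      rw [mul_smul, ← this]; abel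
    refine ⟨h * k, ⟨fun w => ?_, fun w hw => ?_⟩, fun w => ?_⟩
    · rw [key]; exact A.add_mem (hh.1 w) (hk.1 w)
    · rw [mul_smul, hk.2 w hw, hh.2 w hw]
    · rw [key, ← e, ← f]; rfl
  neg_mem' := by
    rintro φ ⟨h, hh, e⟩
    have h2 : ∀ w ∈ A, h⁻¹ • w = w := fun w hw => by rw [inv_smul_eq_iff, hh.2 w hw]
    have key : ∀ w : M, h⁻¹ • w - w = -(h • w - w) := by
      intro w
      have := h2 _ (hh.1 w)
      rw [smul_sub, inv_smul_smul] at this
      rw [← this]; abel
    refine ⟨h⁻¹, ⟨fun w => ?_, h2⟩, fun w => ?_⟩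
    · rw [key]; exact A.neg_mem (hh.1 w)
    · rw [key, ← e]; rfl

theorem shear_linear {F : Type*} [Field F] [Module F M] {T : ι → AddSubgroup M}
    (hF : ∀ y, ∀ w ∈ T y, w ≠ 0 → ∀ w', w' ∈ T y ↔ ∃ c : F, c • w = w')
    (pres : ∀ (h : H) y, ∃ y', ∀ w ∈ T y, h • w ∈ T y') {i j : ι} {v u : M} (hv : v ∈ T i)
    (hv0 : v ≠ 0) (hu : u ∈ T j) (hu0 : u ≠ 0)
    (li : ∀ a b a' b' : F, a • v + b • u = a' • v + b' • u → a = a' ∧ b = b') {h : H}
    (hh : Shear (T i) h) {c : F} (hc : h • u - u = c • v) (a b : F) :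
    h • (a • v + b • u) = (a + c * b) • v + b • u := by
  obtain ⟨y, hy⟩ := pres h j
  have h1 : h • u = c • v + u := by rw [← hc]; abel
  have h0 : h • u ≠ 0 := fun e => hu0 ((smul_eq_zero_iff_eq h).1 e)
  obtain ⟨d, hd⟩ := (hF y _ (hy u hu) h0 _).1 (hy _ ((hF j u hu hu0 _).2 ⟨b, rfl⟩))
  obtain ⟨c', hc'⟩ := (hF i v hv hv0 _).1 (hh.1 (b • u))
  have h2 : h • b • u = c' • v + b • u := by rw [hc']; abel
  rw [h1, h2, smul_add, ← mul_smul] at hd
  obtain ⟨h3, h4⟩ := li _ _ _ _ hd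
  rw [smul_add, hh.2 _ ((hF i v hv hv0 _).2 ⟨a, rfl⟩), h2, ← h3, h4, add_smul, mul_comm c b]
  abel

theorem sl2_of_spread [Finite M] (T : ι → AddSubgroup M) (cover : ∀ w, ∃ y, w ∈ T y)
    (disj : ∀ {y z w}, y ≠ z → w ∈ T y → w ∈ T z → w = 0) (ntriv : ∀ y, ∃ w ∈ T y, w ≠ 0)
    {i j : ι} (hij : i ≠ j) (sup : ∀ y z, y ≠ z → T y ⊔ T z = ⊤)
    (pres : ∀ (h : H) y, ∃ y', ∀ w ∈ T y, h • w ∈ T y')
    (trans : ∀ y w w', w ∉ T y → w' ∈ T y → ∃ h : H, Shear (T y) h ∧ h • w - w = w')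
    (gen : Subgroup.closure {h : H | Shear (T i) h ∨ Shear (T j) h} = ⊤) :
    ∃ (F : Type) (_ : Field F) (_ : Fintype F), Fintype.card F = Nat.card (T i) ∧
      ∃ ρ : H →* SL(2, F), Function.Surjective ρ ∧ ∀ h, ρ h = 1 ↔ ∀ w : M, h • w = w := by
  classical
  have hS : H89.ShearSpread T (fun y => shearMaps H (T y)) :=
    { cover := cover
      disj := disj
      ntriv := ntriv
      two := fun y => by
        by_cases hy : y = i
        · exact ⟨j, fun e => hij (hy.symm.trans e.symm)⟩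
        · exact ⟨i, fun e => hy e.symm⟩
      range := by
        rintro u φ ⟨h, hh, e⟩ w
        rw [e]; exact hh.1 w
      ker := by
        rintro u φ ⟨h, hh, e⟩ w hw
        rw [e, hh.2 w hw, sub_self]
      pres := by
        rintro u φ ⟨h, -, e⟩ y
        obtain ⟨y', hy⟩ := pres h y
        exact ⟨y', fun w hw => by rw [e, add_sub_cancel]; exact hy w hw⟩
      trans := by
        intro u w w' hw hw'
        obtain ⟨h, hh, e⟩ := trans u w w' hw hw'
        exact ⟨DistribMulAction.toAddMonoidEnd H M h - 1, ⟨h, hh, fun _ => rfl⟩, e⟩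
      trans3 := by
        intro u y w w' huy hw
        rw [sup y u huy.symm] at hw
        exact absurd (AddSubgroup.mem_top w) hw }
  have : Nonempty ι := ⟨i⟩
  obtain ⟨F, _, _, _, hF⟩ := hS.exists_field
  obtain ⟨v, hv, hv0⟩ := ntriv i
  obtain ⟨u, hu, hu0⟩ := ntriv j
  have li : ∀ a b a' b' : F, a • v + b • u = a' • v + b' • u → a = a' ∧ b = b' := by
    intro a b a' b' e
    have e1 : (a - a') • v = (b' - b) • u := by
      rw [sub_smul, sub_smul, sub_eq_sub_iff_add_eq_add, e, add_comm]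
    have e2 : (a - a') • v = 0 := disj hij ((hF i v hv hv0 _).2 ⟨_, rfl⟩)
      ((hF j u hu hu0 _).2 ⟨_, e1.symm⟩)
    rw [e2, eq_comm] at e1
    exact ⟨sub_eq_zero.1 ((smul_eq_zero.1 e2).resolve_right hv0),
      (sub_eq_zero.1 ((smul_eq_zero.1 e1).resolve_right hu0)).symm⟩
  have li' : ∀ a b a' b' : F, a • u + b • v = a' • u + b' • v → a = a' ∧ b = b' := by
    intro a b a' b' e
    exact (li b a b' a' (by rw [add_comm, e, add_comm])).symm
  let e : (Fin 2 → F) → M := fun y => y 0 • v + y 1 • u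
  have einj : Function.Injective e := by
    intro y z hyz
    obtain ⟨h0, h1⟩ := li _ _ _ _ hyz
    funext k; fin_cases k
    · exact h0
    · exact h1
  have esurj : Function.Surjective e := by
    intro w
    have : w ∈ T i ⊔ T j := by rw [sup i j hij]; trivial
    obtain ⟨x, hx, y, hy, rfl⟩ := AddSubgroup.mem_sup.1 this
    obtain ⟨a, rfl⟩ := (hF i v hv hv0 _).1 hx
    obtain ⟨b, rfl⟩ := (hF j u hu hu0 _).1 hy
    exact ⟨![a, b], rfl⟩
  let Rep : H → SL(2, F) → Prop := fun h A => ∀ y, h • e y = e (A.1 *ᵥ y)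
  have rmul : ∀ h k A B, Rep h A → Rep k B → Rep (h * k) (A * B) := by
    intro h k A B hA hB y
    rw [mul_smul, hB, hA, Matrix.mulVec_mulVec]; rfl
  have runiq : ∀ h A B, Rep h A → Rep h B → A = B := by
    intro h A B hA hB
    apply Subtype.ext
    apply Matrix.toLin'.injective
    apply LinearMap.ext
    intro y
    exact einj ((hA y).symm.trans (hB y))
  have rone : Rep 1 1 := fun y => by simp
  have rup : ∀ (h : H) (c : F), Shear (T i) h → h • u - u = c • v → Rep h (H70.xu c) := by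
    intro h c hh hc y
    have := shear_linear hF pres hv hv0 hu hu0 li hh hc (y 0) (y 1)
    simp only [e]
    rw [this]
    simp [Matrix.mulVec, dotProduct, Fin.sum_univ_two]
  have rlo : ∀ (h : H) (c : F), Shear (T j) h → h • v - v = c • u → Rep h (H70.xl c) := by
    intro h c hh hc y
    have := shear_linear hF pres hu hu0 hv hv0 li' hh hc (y 1) (y 0)
    simp only [e]
    rw [add_comm, this, add_comm]
    simp [Matrix.mulVec, dotProduct, Fin.sum_univ_two, add_comm]
  have rall : ∀ h : H, ∃ A, Rep h A := by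
    intro h
    have hh : h ∈ Subgroup.closure {h : H | Shear (T i) h ∨ Shear (T j) h} := by
      rw [gen]; trivial
    induction hh using Subgroup.closure_induction with
    | mem x hx =>
      rcases hx with hx | hx
      · obtain ⟨c, hc⟩ := (hF i v hv hv0 _).1 (hx.1 u)
        exact ⟨_, rup x c hx hc.symm⟩
      · obtain ⟨c, hc⟩ := (hF j u hu hu0 _).1 (hx.1 v)
        exact ⟨_, rlo x c hx hc.symm⟩
    | one => exact ⟨1, rone⟩
    | mul x y _ _ hx hy =>
      obtain ⟨A, hA⟩ := hx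
      obtain ⟨B, hB⟩ := hy
      exact ⟨_, rmul _ _ _ _ hA hB⟩
    | inv x _ hx =>
      obtain ⟨A, hA⟩ := hx
      refine ⟨A⁻¹, fun y => ?_⟩
      rw [inv_smul_eq_iff, hA, Matrix.mulVec_mulVec, ← Matrix.SpecialLinearGroup.coe_mul,
        mul_inv_cancel]
      simp
  choose r hr using rall
  let ρ : H →* SL(2, F) := MonoidHom.mk' r fun a b =>
    runiq _ _ _ (hr (a * b)) (rmul _ _ _ _ (hr a) (hr b))
  refine ⟨F, inferInstance, inferInstance, ?_, ρ, ?_, fun h => ⟨fun e1 w => ?_, fun e1 => ?_⟩⟩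
  · rw [← Nat.card_eq_fintype_card]
    refine Nat.card_congr (Equiv.ofBijective
      (fun c => (⟨c • v, (hF i v hv hv0 _).2 ⟨c, rfl⟩⟩ : T i)) ⟨fun a b hab => ?_, fun w => ?_⟩)
    · exact smul_left_injective F hv0 (congrArg Subtype.val hab)
    · obtain ⟨c, hc⟩ := (hF i v hv hv0 _).1 w.2
      exact ⟨c, Subtype.ext hc⟩
  · rw [← MonoidHom.range_eq_top]
    apply H70.sl_eq_top_of_xu_xl
    · intro c
      obtain ⟨h, hh, e1⟩ := trans i u (c • v) (fun hui => hu0 (disj hij hui hu))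
        ((hF i v hv hv0 _).2 ⟨c, rfl⟩)
      exact ⟨h, runiq _ _ _ (hr h) (rup h c hh e1)⟩
    · intro c
      obtain ⟨h, hh, e1⟩ := trans j v (c • u) (fun hvj => hv0 (disj hij hv hvj))
        ((hF j u hu hu0 _).2 ⟨c, rfl⟩)
      exact ⟨h, runiq _ _ _ (hr h) (rlo h c hh e1)⟩
  · obtain ⟨y, rfl⟩ := esurj w
    have := hr h y
    rw [show r h = 1 from e1] at this
    simpa using this
  · exact runiq _ _ _ (hr h) fun y => by rw [e1]; simp

end H66.TI
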