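/- Groups of `GF(2^n)`-type: the line `V V^g`, its spread and the group `SL₂(|V|)` on it. -/
import Cfsg.Agent.H66.GF2
import Cfsg.Agent.H66.SpreadSL2

set_option autoImplicit false
open Cfsg H70 MatrixGroups

namespace H66.TI

variable {G : Type*} [Group G]

theorem card_sup_of_comm [Finite G] {A B : Subgroup G} (hc : ∀ a ∈ A, ∀ b ∈ B, a * b = b * a)
    (hd : ∀ x ∈ A, x ∈ B → x = 1) : Nat.card ↥(A ⊔ B) = Nat.card A * Nat.card B := by
  rw [← Nat.card_prod]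
  refine (Nat.card_congr (Equiv.ofBijective (fun x : A × B => (⟨x.1 * x.2, (A ⊔ B).mul_mem
    (Subgroup.mem_sup_left x.1.2) (Subgroup.mem_sup_right x.2.2)⟩ : ↥(A ⊔ B))) ⟨?_, ?_⟩)).symm
  · rintro ⟨a, b⟩ ⟨a', b'⟩ e
    have e1 : (a : G) * b = a' * b' := congrArg Subtype.val e
    have e2 : (a' : G)⁻¹ * a = b' * (b : G)⁻¹ := by
      calc (a' : G)⁻¹ * a = (a' : G)⁻¹ * (a * b) * (b : G)⁻¹ := by group
        _ = _ := by rw [e1]; group
    have e3 := hd _ (A.mul_mem (A.inv_mem a'.2) a.2) (e2 ▸ B.mul_mem b'.2 (B.inv_mem b.2))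
    have e4 : a = a' := Subtype.ext (inv_mul_eq_one.1 e3).symm
    rw [e3] at e2
    exact Prod.ext e4 (Subtype.ext (mul_inv_eq_one.1 e2.symm).symm)
  · rintro ⟨w, hw⟩
    obtain ⟨a, ha, b, hb, rfl⟩ := (mem_sup_of_comm hc).1 hw
    exact ⟨(⟨a, ha⟩, ⟨b, hb⟩), rfl⟩

namespace Nb

variable {V P U : Subgroup G}

theorem mem_sup (h : GF V P) (n : Nb V P U) {w : G} :
    w ∈ V ⊔ U ↔ ∃ v ∈ V, ∃ u ∈ U, w = v * u :=
  mem_sup_of_comm fun v hv u hu => (h.cen u (n.le hu) v hv).symm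

theorem sup_le (h : GF V P) (n : Nb V P U) : V ⊔ U ≤ P := _root_.sup_le h.le n.le

theorem sup_comm' (h : GF V P) (n : Nb V P U) {x y : G} (hx : x ∈ V ⊔ U) (hy : y ∈ V ⊔ U) :
    x * y = y * x := by
  obtain ⟨v, hv, u, hu, rfl⟩ := (n.mem_sup h).1 hx
  obtain ⟨v', hv', u', hu', rfl⟩ := (n.mem_sup h).1 hy
  have c1 : Commute v (v' * u') := (h.cen _ (P.mul_mem (h.le hv') (n.le hu')) v hv).symm
  have c2 : Commute u v' := h.cen u (n.le hu) v' hv'
  have c3 : Commute u u' := (n.eti h).comm hu hu'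
  exact c1.mul_left (c2.mul_right c3)

theorem conj_mem_sup (h : GF V P) (n : Nb V P U) {p w : G} (hp : p ∈ P) (hw : w ∈ V ⊔ U) :
    p * w * p⁻¹ ∈ V ⊔ U := by
  have := (V ⊔ U).mul_mem (Subgroup.mem_sup_left (h.cmV p hp w (n.sup_le h hw))) hw
  simpa [cm] using this

theorem trans [Finite G] (h : GF V P) (n : Nb V P U) {w v : G} (hw : w ∈ V ⊔ U) (hwV : w ∉ V)
    (hv : v ∈ V) : ∃ p ∈ P, cm p w = v := by
  obtain ⟨v', hv', u, hu, rfl⟩ := (n.mem_sup h).1 hw
  obtain ⟨p, hp, e⟩ := n.surj' h hu (fun e => hwV (by simpa [e] using hv')) hv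
  refine ⟨p, hp, ?_⟩
  rw [h.cm_symm hp (n.sup_le h hw), h.cm_mul_left (h.le hv') (n.le hu) hp,
    cm_eq_one.2 (h.cen p hp v' hv').symm, one_mul, h.cm_symm (n.le hu) hp, e]

theorem cover [Finite G] (h : GF V P) (n : Nb V P U) {w : G} (hw : w ∈ V ⊔ U) (hwV : w ∉ V) :
    ∃ p ∈ P, w ∈ conjBy U p := by
  obtain ⟨v, hv, u, hu, rfl⟩ := (n.mem_sup h).1 hw
  obtain ⟨p, hp, e⟩ := n.surj' h hu (fun e => hwV (by simpa [e] using hv)) hv
  refine ⟨p, hp, ?_⟩
  rw [← mul_inv_eq_iff_eq_mul.1 e]; exact conj_mem_conjBy p hu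

theorem conjBy_le_sup (h : GF V P) (n : Nb V P U) {p : G} (hp : p ∈ P) : conjBy U p ≤ V ⊔ U := by
  rintro _ ⟨u, hu, rfl⟩
  exact n.conj_mem_sup h hp (Subgroup.mem_sup_right hu)

/-- the members of the spread. -/
theorem member [Finite G] (h : GF V P) (n : Nb V P U) {a : G} (ha : conjBy V a ≤ V ⊔ U) :
    conjBy V a = V ∨ ∃ p ∈ P, conjBy V a = conjBy U p := by
  obtain ⟨v, hv, hv1⟩ := n.exists_ne_one
  have h1 : a * v * a⁻¹ ≠ 1 := fun e => hv1 (conj_eq_one_iff.1 e)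
  by_cases hc : a * v * a⁻¹ ∈ V
  · exact Or.inl (h.ti a v hv hv1 hc)
  · obtain ⟨p, hp, e⟩ := n.cover h (ha (conj_mem_conjBy a hv)) hc
    obtain ⟨g, rfl⟩ := n.cl
    rw [conjBy_conjBy] at e
    exact Or.inr ⟨p, hp, by rw [conjBy_conjBy]; exact h.eq_of_mem h1 (conj_mem_conjBy a hv) e⟩

theorem exists_member [Finite G] (h : GF V P) (n : Nb V P U) {w : G} (hw : w ∈ V ⊔ U) :
    ∃ a, conjBy V a ≤ V ⊔ U ∧ w ∈ conjBy V a := by
  by_cases hc : w ∈ V
  · exact ⟨1, by rw [conjBy_one]; exact le_sup_left, by rwa [conjBy_one]⟩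
  · obtain ⟨p, hp, e⟩ := n.cover h hw hc
    have := n.conjBy_le_sup h hp
    obtain ⟨g, rfl⟩ := n.cl
    rw [conjBy_conjBy] at e this
    exact ⟨_, this, e⟩

theorem le_normalizer [Finite G] (h : GF V P) {g : G} (n : Nb V P (conjBy V g)) :
    P ⊔ conjBy P g ≤ Subgroup.normalizer ((V ⊔ conjBy V g : Subgroup G) : Set G) := by
  refine _root_.sup_le (fun p hp => Subgroup.mem_normalizer_fintype fun w hw =>
    n.conj_mem_sup h hp hw) (fun p hp => Subgroup.mem_normalizer_fintype fun w hw => ?_)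
  have := (n.symm h).conj_mem_sup (h.conj g) hp (w := w) (by rwa [sup_comm])
  rwa [sup_comm] at this

/-- the non-identity elements of `V` are conjugate in `N(V)`. -/
theorem exists_conj [Finite G] (h : GF V P) {g : G} (n : Nb V P (conjBy V g)) {v v' : G}
    (hv : v ∈ V) (hv1 : v ≠ 1) (hv' : v' ∈ V) (hv1' : v' ≠ 1) :
    ∃ m : G, conjBy V m = V ∧ m * v * m⁻¹ = v' := by
  have n₁ := n.symm h
  have h₁ := h.conj g
  obtain ⟨u, hu, hu1⟩ := n.exists_ne_one'
  obtain ⟨a, -, ha⟩ := n₁.surj' h₁ hv hv1 hu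
  obtain ⟨b, -, hb⟩ := n₁.surj' h₁ hv' hv1' hu
  obtain ⟨p, hp, e⟩ := n.surj' h hu hu1 (V.mul_mem hv' (V.inv_mem hv))
  have ha' := mul_inv_eq_iff_eq_mul.1 ha
  have hb' := mul_inv_eq_iff_eq_mul.1 hb
  have e' := mul_inv_eq_iff_eq_mul.1 e
  have key : (b⁻¹ * p * a) * v * (b⁻¹ * p * a)⁻¹ = v' := by
    have c1 := h.cen p hp v hv
    have c2 := h.cen u (n.le hu) v hv
    have c3 := h.cen u (n.le hu) v' hv'
    calc (b⁻¹ * p * a) * v * (b⁻¹ * p * a)⁻¹ = b⁻¹ * (p * (a * v * a⁻¹) * p⁻¹) * b := by group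
      _ = b⁻¹ * ((p * u * p⁻¹) * (p * v) * p⁻¹) * b := by rw [ha']; group
      _ = b⁻¹ * (v' * v⁻¹ * (u * v)) * b := by rw [e', c1]; group
      _ = b⁻¹ * (u * v') * b := by rw [c2, c3]; group
      _ = v' := by rw [← hb']; group
  exact ⟨_, h.ti _ v hv hv1 (key ▸ hv'), key⟩

theorem sl2 [Finite G] (h : GF V P) {g : G} (n : Nb V P (conjBy V g)) :
    ∃ (F : Type) (_ : Field F) (_ : Fintype F), Fintype.card F = Nat.card V ∧
      ∃ ρ : ↥(P ⊔ conjBy P g) →* SL(2, F), Function.Surjective ρ ∧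
        ∀ x, ρ x = 1 ↔ (x : G) ∈ Subgroup.centralizer ((V ⊔ conjBy V g : Subgroup G) : Set G) := by
  have n₁ := n.symm h
  have h₁ := h.conj g
  have hN := n.le_normalizer h
  set U := conjBy V g with hU
  set P₁ := conjBy P g with hP₁
  set W := V ⊔ U with hW
  set H := P ⊔ P₁ with hH
  have hcj : ∀ x ∈ H, ∀ w ∈ W, x * w * x⁻¹ ∈ W := fun x hx w hw =>
    (Subgroup.mem_normalizer_iff.1 (hN hx) w).1 hw
  let instCG : CommGroup W := { (inferInstance : Group W) with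
    mul_comm := fun a b => Subtype.ext (n.sup_comm' h a.2 b.2) }
  let instAct : DistribMulAction H (Additive W) :=
    { smul := fun x w => Additive.ofMul ⟨x * (w.toMul : W) * (x : G)⁻¹, hcj x x.2 _ w.toMul.2⟩
      one_smul := fun w => Additive.toMul.injective (Subtype.ext (by
        change ((1 : H) : G) * _ * ((1 : H) : G)⁻¹ = _; simp))
      mul_smul := fun x y w => Additive.toMul.injective (Subtype.ext (by
        change ((x * y : H) : G) * _ * ((x * y : H) : G)⁻¹ =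
          (x : G) * ((y : G) * _ * (y : G)⁻¹) * (x : G)⁻¹
        simp [mul_assoc]))
      smul_zero := fun x => Additive.toMul.injective (Subtype.ext (by
        change (x : G) * 1 * (x : G)⁻¹ = 1; simp))
      smul_add := fun x a b => Additive.toMul.injective (Subtype.ext (by
        change (x : G) * ((a.toMul : W) * (b.toMul : W) : G) * (x : G)⁻¹ =
          (x : G) * (a.toMul : W) * (x : G)⁻¹ * ((x : G) * (b.toMul : W) * (x : G)⁻¹)
        group)) }
  have hsm : ∀ (x : H) (w : Additive W), (((x • w).toMul : W) : G) =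
    x * (w.toMul : W) * (x : G)⁻¹ := fun _ _ => rfl
  have hsub : ∀ (x : H) (w : Additive W), (((x • w - w).toMul : W) : G) =
    cm (x : G) (w.toMul : W) := fun x w => by
    rw [sub_eq_add_neg]; rfl
  let ι := {X : Subgroup G // (∃ a, X = conjBy V a) ∧ X ≤ W}
  let T : ι → AddSubgroup (Additive W) := fun X => Subgroup.toAddSubgroup (X.1.subgroupOf W)
  have hT : ∀ (X : ι) (w : Additive W), w ∈ T X ↔ ((w.toMul : W) : G) ∈ X.1 := fun _ _ => Iff.rfl
  have h0 : ∀ w : Additive W, w = 0 ↔ ((w.toMul : W) : G) = 1 := fun w =>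
    ⟨fun e => by rw [e]; rfl, fun e => Additive.toMul.injective (Subtype.ext e)⟩
  have hdisj : ∀ X Y : ι, X ≠ Y → ∀ x ∈ X.1, x ∈ Y.1 → x = 1 := by
    rintro ⟨X, ⟨a, rfl⟩, hX⟩ ⟨Y, ⟨b, rfl⟩, hY⟩ hne x hx hy
    by_contra hx1
    exact hne (Subtype.ext (h.eq_of_mem hx1 hx hy))
  let iV : ι := ⟨V, ⟨1, (conjBy_one V).symm⟩, le_sup_left⟩
  let iU : ι := ⟨U, ⟨g, rfl⟩, le_sup_right⟩
  have hshear : ∀ (X : ι) (x : H), (∀ w ∈ W, cm (x : G) w ∈ X.1) →
      (∀ w ∈ X.1, (x : G) * w = w * x) → Shear (T X) x := by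
    intro X x h1 h2
    refine ⟨fun w => ?_, fun w hw => Additive.toMul.injective (Subtype.ext ?_)⟩
    · rw [hT, hsub]; exact h1 _ w.toMul.2
    · rw [hsm, h2 _ ((hT X w).1 hw)]; simp
  have hWP₁ : W ≤ P₁ := _root_.sup_le n₁.le h₁.le
  obtain ⟨F, _, _, hc, ρ, hρ, hk⟩ := sl2_of_spread (H := H) T (i := iV) (j := iU)
    (fun w => by
      obtain ⟨a, h1, h2⟩ := n.exists_member h w.toMul.2
      exact ⟨⟨_, ⟨a, rfl⟩, h1⟩, h2⟩)
    (fun {y z w} hyz hy hz => (h0 w).2 (hdisj y z hyz _ hy hz))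
    (by
      rintro ⟨X, ⟨a, rfl⟩, hX⟩
      obtain ⟨v, hv, hv1⟩ := n.exists_ne_one
      exact ⟨Additive.ofMul ⟨_, hX (conj_mem_conjBy a hv)⟩, conj_mem_conjBy a hv,
        fun e => hv1 (conj_eq_one_iff.1 ((h0 _).1 e))⟩)
    (fun e => n.ne (congrArg Subtype.val e).symm)
    (by
      intro X Y hXY
      have h1 : X.1 ⊔ Y.1 = W := by
        apply Subgroup.eq_of_le_of_card_ge (_root_.sup_le X.2.2 Y.2.2)
        rw [card_sup_of_comm (fun a ha b hb => n.sup_comm' h (X.2.2 ha) (Y.2.2 hb)) (hdisj X Y hXY),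
          card_sup_of_comm (fun a ha b hb => (h.cen b (n.le hb) a ha).symm)
            (fun x hx hx' => n.disj h hx' hx), n.card]
        obtain ⟨a, ha⟩ := X.2.1
        obtain ⟨b, hb⟩ := Y.2.1
        rw [ha, hb, card_conjBy, card_conjBy]
      rw [eq_top_iff]
      intro w _
      have h2 : ((w.toMul : W) : G) ∈ X.1 ⊔ Y.1 := by rw [h1]; exact w.toMul.2
      obtain ⟨a, ha, b, hb, e⟩ := (mem_sup_of_comm
        (fun a ha b hb => n.sup_comm' h (X.2.2 ha) (Y.2.2 hb))).1 h2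
      refine AddSubgroup.mem_sup.2 ⟨Additive.ofMul ⟨a, X.2.2 ha⟩, ha, Additive.ofMul ⟨b, Y.2.2 hb⟩,
        hb, Additive.toMul.injective (Subtype.ext e.symm)⟩)
    (by
      rintro x ⟨X, ⟨a, rfl⟩, hX⟩
      refine ⟨⟨conjBy (conjBy V a) x, ⟨x * a, conjBy_conjBy _ _ _⟩, ?_⟩, fun w hw => ?_⟩
      · rintro _ ⟨w, hw, rfl⟩
        exact hcj x x.2 w (hX hw)
      · exact conj_mem_conjBy (x : G) hw)
    (by
      rintro ⟨X, ⟨a, rfl⟩, hX⟩ w w' hw hw'
      rw [hT] at hw hw'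
      rcases n.member h hX with e | ⟨p, hp, e⟩
      · dsimp only at hw hw'
        rw [e] at hw hw'
        obtain ⟨q, hq, e1⟩ := n.trans h w.toMul.2 hw hw'
        refine ⟨⟨q, Subgroup.mem_sup_left hq⟩, hshear _ _ (fun y hy => ?_) (fun y hy => ?_),
          Additive.toMul.injective (Subtype.ext ((hsub _ _).trans e1))⟩
        · dsimp only; rw [e]; exact h.cmV q hq y (n.sup_le h hy)
        · dsimp only at hy; rw [e] at hy; exact h.cen q hq y hy
      · dsimp only at hw hw'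
        rw [e] at hw hw'
        have h₂ := h₁.conj p
        have n₂ := n₁.conj p
        have hWp : conjBy U p ⊔ conjBy V p = W := by
          rw [← conjBy_sup, sup_comm]
          exact conjBy_eq_self_iff.2 (hN (Subgroup.mem_sup_left hp))
        obtain ⟨q, hq, e1⟩ := n₂.trans h₂ (w := ((w.toMul : W) : G))
          (by rw [hWp]; exact w.toMul.2) hw hw'
        have hqH : q ∈ H := conjBy_le_of_le le_sup_right (Subgroup.mem_sup_left hp) hq
        refine ⟨⟨q, hqH⟩, hshear _ _ (fun y hy => ?_) (fun y hy => ?_),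
          Additive.toMul.injective (Subtype.ext ((hsub _ _).trans e1))⟩
        · dsimp only; rw [e]; exact h₂.cmV q hq y (n₂.sup_le h₂ (by rwa [hWp]))
        · dsimp only at hy; rw [e] at hy; exact h₂.cen q hq y hy)
    (by
      rw [eq_top_iff]
      rintro ⟨x, hx⟩ -
      have : H ≤ (Subgroup.closure {x : H | Shear (T iV) x ∨ Shear (T iU) x}).map H.subtype := by
        refine _root_.sup_le (fun p hp => ⟨⟨p, Subgroup.mem_sup_left hp⟩,
          Subgroup.subset_closure (Or.inl (hshear _ _ (fun y hy => ?_) (fun y hy => ?_))), rfl⟩)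
          (fun p hp => ⟨⟨p, Subgroup.mem_sup_right hp⟩,
          Subgroup.subset_closure (Or.inr (hshear _ _ (fun y hy => ?_) (fun y hy => ?_))), rfl⟩)
        · exact h.cmV p hp y (n.sup_le h hy)
        · exact h.cen p hp y hy
        · exact h₁.cmV p hp y (hWP₁ hy)
        · exact h₁.cen p hp y hy
      obtain ⟨y, hy, e⟩ := this hx
      rwa [← show y = ⟨x, hx⟩ from Subtype.ext e])
  refine ⟨F, inferInstance, inferInstance, ?_, ρ, hρ, fun x => (hk x).trans ⟨fun e w hw => ?_,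
    fun e w => Additive.toMul.injective (Subtype.ext ?_)⟩⟩
  · rw [hc]
    exact Nat.card_congr (Subgroup.subgroupOfEquivOfLe (le_sup_left : V ≤ W)).toEquiv
  · have := congrArg (fun z : Additive W => ((z.toMul : W) : G)) (e (Additive.ofMul ⟨w, hw⟩))
    exact (mul_inv_eq_iff_eq_mul.1 this).symm
  · rw [hsm, ← e _ w.toMul.2]; simp

end Nb

end H66.TI
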