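/- Groups of `GF(2^n)`-type: the structure `GF` from the hypotheses on `N(V)`. -/
import Cfsg.Agent.H66.GF3
import Cfsg.Agent.H78.Basic
import Cfsg.Agent.H9.PBasic

set_option autoImplicit false
open Cfsg H70

namespace H66.TI

variable {G : Type*} [Group G]

theorem exists_center_mod [Finite G] {p : ℕ} [Fact p.Prime] {P V K : Subgroup G} (hP : IsPGroup p P)
    (hVn : ∀ x ∈ P, ∀ v ∈ V, x * v * x⁻¹ ∈ V) (hK : K ≤ P)
    (hKn : ∀ x ∈ P, ∀ k ∈ K, x * k * x⁻¹ ∈ K) (hne : ¬ K ≤ V) :
    ∃ k ∈ K, k ∉ V ∧ ∀ x ∈ P, cm k x ∈ V := by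
  have hn : (V.subgroupOf P).Normal := ⟨fun v hv x => hVn x x.2 v hv⟩
  have hn2 : (K.subgroupOf P).Normal := ⟨fun v hv x => hKn x x.2 v hv⟩
  have hn3 : ((K.subgroupOf P).map (QuotientGroup.mk' (V.subgroupOf P))).Normal :=
    hn2.map _ (QuotientGroup.mk'_surjective _)
  obtain ⟨x, ⟨k, hk, rfl⟩, hc, ho⟩ := H9.exists_mem_center_orderOf_eq
    (hP.to_quotient (V.subgroupOf P))
    (K := (K.subgroupOf P).map (QuotientGroup.mk' (V.subgroupOf P))) (by
      intro e
      apply hne
      intro k hk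
      have : QuotientGroup.mk' (V.subgroupOf P) ⟨k, hK hk⟩ ∈
          (K.subgroupOf P).map (QuotientGroup.mk' (V.subgroupOf P)) := ⟨_, hk, rfl⟩
      rw [e, Subgroup.mem_bot] at this
      exact (QuotientGroup.eq_one_iff (N := V.subgroupOf P) _).1 this)
  refine ⟨k, hk, fun hkV => ?_, fun x hx => ?_⟩
  · have : QuotientGroup.mk' (V.subgroupOf P) k = 1 := (QuotientGroup.eq_one_iff _).2 hkV
    rw [this, orderOf_one] at ho
    exact (Fact.out : p.Prime).one_lt.ne ho
  · have := Subgroup.mem_center_iff.1 hc (QuotientGroup.mk' (V.subgroupOf P) ⟨x, hx⟩)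
    have h2 : QuotientGroup.mk' (V.subgroupOf P) (k * ⟨x, hx⟩ * k⁻¹ * ⟨x, hx⟩⁻¹) = 1 := by
      rw [map_mul, map_mul, map_mul, map_inv, map_inv, ← this]; group
    exact (QuotientGroup.eq_one_iff (N := V.subgroupOf P) _).1 h2

theorem isPGroup_two_of_pow {K : Subgroup G} {n : ℕ} (h : ∀ x ∈ K, x ^ 2 ^ n = 1) : IsPGroup 2 K :=
  fun x => ⟨n, Subtype.ext (h x x.2)⟩

/-- The structure `GF` from `F*(N(V)) = Q` and the maximality of `V`. -/
theorem GF_of [Finite G] {V Q : Subgroup G} (hV : ETI V) (hQ : IsPGroup 2 Q)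
    (hQM : ∀ x ∈ Q, conjBy V x = V) (hQn : ∀ m, conjBy V m = V → ∀ x ∈ Q, m * x * m⁻¹ ∈ Q)
    (hO : ∀ K : Subgroup G, IsPGroup 2 K → (∀ x ∈ K, conjBy V x = V) →
      (∀ m, conjBy V m = V → ∀ x ∈ K, m * x * m⁻¹ ∈ K) → K ≤ Q)
    (hC : ∀ y, conjBy V y = V → (∀ x ∈ Q, y * x = x * y) → y ∈ Q)
    (hmax : ∀ A : Subgroup G, V ≤ A → (∀ x ∈ A, conjBy V x = V) → (∀ x ∈ A, ∀ y ∈ A, x * y = y * x) →
      (∀ m, conjBy V m = V → ∀ x ∈ A, m * x * m⁻¹ ∈ A) → A ≤ V) :
    GF V (Q ⊓ Subgroup.centralizer (V : Set G)) := by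
  have : Fact (Nat.Prime 2) := ⟨Nat.prime_two⟩
  set P := Q ⊓ Subgroup.centralizer (V : Set G) with hP
  have hmem : ∀ {x}, x ∈ P ↔ x ∈ Q ∧ ∀ v ∈ V, x * v = v * x := fun {x} =>
    ⟨fun h => ⟨h.1, fun v hv => (h.2 v hv).symm⟩, fun h => ⟨h.1, fun v hv => (h.2 v hv).symm⟩⟩
  have hinv : ∀ {K : Subgroup G} {m}, conjBy K m = K → conjBy K m⁻¹ = K := fun {K m} h =>
    conjBy_eq_self_iff.2 (Subgroup.inv_mem _ (conjBy_eq_self_iff.1 h))
  have hcj : ∀ {K : Subgroup G} {m y}, conjBy K m = K → (∀ v ∈ K, y * v = v * y) →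
      ∀ v ∈ K, m * y * m⁻¹ * v = v * (m * y * m⁻¹) := by
    intro K m y hm hy v hv
    have := hy _ (conj_mem_of_conjBy_eq (hinv hm) hv)
    calc m * y * m⁻¹ * v = m * (y * (m⁻¹ * v * m⁻¹⁻¹)) * m⁻¹ := by group
      _ = _ := by rw [this]; group
  have hVQ : V ≤ Q := hO V (isPGroup_two_of_pow (n := 1) fun x hx => by
    rw [pow_one, pow_two, hV.sq x hx]) (fun x hx => conjBy_of_mem hx)
    (fun m hm x hx => conj_mem_of_conjBy_eq hm hx)
  have hle : V ≤ P := fun v hv => hmem.2 ⟨hVQ hv, fun w hw => hV.comm hv hw⟩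
  have hcen : ∀ p ∈ P, ∀ v ∈ V, p * v = v * p := fun p hp => (hmem.1 hp).2
  have hPn : ∀ m, conjBy V m = V → ∀ x ∈ P, m * x * m⁻¹ ∈ P := fun m hm x hx =>
    hmem.2 ⟨hQn m hm x hx.1, hcj hm (hcen x hx)⟩
  have hnorm : ∀ m, conjBy V m = V → conjBy P m = P := fun m hm =>
    conjBy_eq_of_conj_mem (hPn m hm)
  have hPM : ∀ x ∈ P, conjBy V x = V := fun x hx => hQM x hx.1
  -- centres of invariant subgroups between `V` and `P`
  have hZ : ∀ K : Subgroup G, V ≤ K → K ≤ P → (∀ m, conjBy V m = V → ∀ x ∈ K, m * x * m⁻¹ ∈ K) →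
      ∀ y ∈ K, (∀ x ∈ K, y * x = x * y) → y ∈ V := by
    intro K hVK hKP hKn y hy hc
    refine hmax (K ⊓ Subgroup.centralizer (K : Set G))
      (fun v hv => ⟨hVK hv, fun x hx => hcen x (hKP hx) v hv⟩) (fun x hx => hPM x (hKP hx.1))
      (fun x hx z hz => hz.2 x hx.1) (fun m hm x hx => ⟨hKn m hm x hx.1, fun z hz => ?_⟩)
      ⟨hy, fun x hx => (hc x hx).symm⟩
    exact (hcj (conjBy_eq_of_conj_mem (hKn m hm)) (fun w hw => (hx.2 w hw).symm) z hz).symm
  have hctr : ∀ y ∈ P, (∀ p ∈ P, y * p = p * y) → y ∈ V := hZ P hle le_rfl hPn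
  have hcmV : ∀ p ∈ P, ∀ r ∈ P, cm p r ∈ V := by
    let Z₂ : Subgroup G :=
      { carrier := {x | x ∈ P ∧ ∀ p ∈ P, cm x p ∈ V}
        one_mem' := ⟨P.one_mem, fun p _ => by simp [cm]⟩
        mul_mem' := by
          rintro x y ⟨hx, hx'⟩ ⟨hy, hy'⟩
          refine ⟨P.mul_mem hx hy, fun p hp => ?_⟩
          have := V.mul_mem (conj_mem_of_conjBy_eq (hPM x hx) (hy' p hp)) (hx' p hp)
          convert this using 1; unfold cm; group
        inv_mem' := by
          rintro x ⟨hx, hx'⟩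
          refine ⟨P.inv_mem hx, fun p hp => ?_⟩
          have := conj_mem_of_conjBy_eq (hPM _ (P.inv_mem hx)) (V.inv_mem (hx' p hp))
          convert this using 1; unfold cm; group }
    have hZn : ∀ m, conjBy V m = V → ∀ x ∈ Z₂, m * x * m⁻¹ ∈ Z₂ := by
      rintro m hm x ⟨hx, hx'⟩
      refine ⟨hPn m hm x hx, fun p hp => ?_⟩
      have := conj_mem_of_conjBy_eq hm (hx' _ (hPn _ (hinv hm) p hp))
      convert this using 1; unfold cm; group
    have hVZ : V ≤ Z₂ := fun v hv => ⟨hle hv, fun p hp => by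
      rw [cm_eq_one.2 (hcen p hp v hv).symm]; exact V.one_mem⟩
    have hK : P ⊓ Subgroup.centralizer (Z₂ : Set G) ≤ V := by
      by_contra hne
      obtain ⟨k, hk, hkV, hk'⟩ := exists_center_mod (K := P ⊓ Subgroup.centralizer (Z₂ : Set G))
        (hQ.to_le (inf_le_left : P ≤ Q))
        (fun x hx v hv => conj_mem_of_conjBy_eq (hPM x hx) hv) inf_le_left
        (fun x hx k hk => ⟨hPn x (hPM x hx) k hk.1, fun z hz => (hcj (conjBy_eq_of_conj_mem
          (hZn x (hPM x hx))) (fun w hw => (hk.2 w hw).symm) z hz).symm⟩) hne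
      exact hkV (hZ Z₂ hVZ (fun x hx => hx.1) hZn k ⟨hk.1, hk'⟩ fun x hx => (hk.2 x hx).symm)
    intro p hp r hr
    refine hK ⟨P.mul_mem (P.mul_mem (P.mul_mem hp hr) (P.inv_mem hp)) (P.inv_mem hr), ?_⟩
    rintro z ⟨hz, hz'⟩
    have a1 : Commute (cm z p) r := (hcen r hr _ (hz' p hp)).symm
    have a2 : Commute (cm z p) p := (hcen p hp _ (hz' p hp)).symm
    have b1 : Commute (cm z r) p := (hcen p hp _ (hz' r hr)).symm
    have b2 : Commute (cm z r) r := (hcen r hr _ (hz' r hr)).symm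
    have ab : Commute (cm z p) (cm z r) := hV.comm (hz' p hp) (hz' r hr)
    rw [← mul_inv_eq_iff_eq_mul]
    set a := cm z p with ha
    set b := cm z r with hb
    have e1 : z * p * z⁻¹ = a * p := by rw [ha]; unfold cm; group
    have e2 : z * r * z⁻¹ = b * r := by rw [hb]; unfold cm; group
    calc z * (p * r * p⁻¹ * r⁻¹) * z⁻¹
        = (z * p * z⁻¹) * (z * r * z⁻¹) * (z * p * z⁻¹)⁻¹ * (z * r * z⁻¹)⁻¹ := by group
      _ = a * (p * (b * r) * p⁻¹) * a⁻¹ * (b * r)⁻¹ := by rw [e1, e2]; group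
      _ = (p * (b * r) * p⁻¹) * (b * r)⁻¹ := by
        rw [((a2.mul_right (ab.mul_right a1)).mul_right a2.inv_right).eq]; group
      _ = (p * b) * r * p⁻¹ * r⁻¹ * b⁻¹ := by group
      _ = b * (p * r * p⁻¹ * r⁻¹) * b⁻¹ := by rw [← b1.eq]; group
      _ = _ := by
        rw [(((b1.mul_right b2).mul_right b1.inv_right).mul_right b2.inv_right).eq]; unfold cm; group
  -- squares of elements acting trivially on `V` and `P / V` centralize `P`
  have hsq : ∀ {K : Subgroup G} (y : G), (∀ v ∈ V, y * v = v * y) → (∀ p ∈ K, cm y p ∈ V) →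
      ∀ p ∈ K, y * y * p = p * (y * y) := by
    intro K y hy hc p hp
    have e1 : y * p * y⁻¹ = cm y p * p := by unfold cm; group
    rw [← mul_inv_eq_iff_eq_mul]
    calc y * y * p * (y * y)⁻¹ = y * (y * p * y⁻¹) * y⁻¹ := by group
      _ = (y * cm y p) * p * y⁻¹ := by rw [e1]; group
      _ = cm y p * (y * p * y⁻¹) := by rw [hy _ (hc p hp)]; group
      _ = p := by rw [e1, ← mul_assoc, hV.sq _ (hc p hp), one_mul]
  have hpsq : ∀ p ∈ P, p * p ∈ V := fun p hp =>
    hctr _ (P.mul_mem hp hp) (hsq p (hcen p hp) (hcmV p hp))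
  have hQexp : ∃ n, ∀ x ∈ Q, x ^ 2 ^ n = 1 := by
    obtain ⟨n, hn⟩ := IsPGroup.iff_card.1 hQ
    exact ⟨n, fun x hx => by
      have := pow_card_eq_one' (x := (⟨x, hx⟩ : Q))
      rw [hn] at this
      exact congrArg Subtype.val this⟩
  obtain ⟨n, hn⟩ := hQexp
  have hCP : ∀ y : G, (∀ p ∈ P, y * p = p * y) → y * y ∈ Q := by
    intro y hy
    have hyV : ∀ v ∈ V, y * v = v * y := fun v hv => hy v (hle hv)
    refine hC _ (conjBy_eq_of_comm fun v hv => Commute.mul_left (hyV v hv) (hyV v hv))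
      (hsq y hyV fun x hx => ?_)
    have h1 : ∀ p ∈ P, cm y x * p = p * cm y x := by
      intro p hp
      have c1 : Commute y p := hy p hp
      have c2 : Commute (x * y * x⁻¹) p := hcj (hnorm x (hQM x hx)) hy p hp
      have := c1.mul_left c2.inv_left
      convert this.eq using 2 <;> (unfold cm; group)
    exact hctr _ (hmem.2 ⟨Q.mul_mem (hQn y (conjBy_eq_of_comm hyV) x hx) (Q.inv_mem hx),
      fun v hv => h1 v (hle hv)⟩) h1
  exact
    { toETI := hV
      le := hle
      cen := hcen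
      norm := hnorm
      cmV := hcmV
      psq := hpsq
      ctr := hctr
      faith := by
        intro y hy hc
        let K : Subgroup G :=
          { carrier := {x | (∀ v ∈ V, x * v = v * x) ∧ ∀ p ∈ P, cm x p ∈ V}
            one_mem' := ⟨fun v _ => by simp, fun p _ => by simp [cm]⟩
            mul_mem' := by
              rintro x y ⟨hx, hx'⟩ ⟨hy, hy'⟩
              refine ⟨fun v hv => Commute.mul_left (hx v hv) (hy v hv), fun p hp => ?_⟩
              have := V.mul_mem (conj_mem_of_conjBy_eq (conjBy_eq_of_comm hx) (hy' p hp)) (hx' p hp)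
              convert this using 1; unfold cm; group
            inv_mem' := by
              rintro x ⟨hx, hx'⟩
              refine ⟨fun v hv => Commute.inv_left (hx v hv), fun p hp => ?_⟩
              have := conj_mem_of_conjBy_eq (hinv (conjBy_eq_of_comm hx)) (V.inv_mem (hx' p hp))
              convert this using 1; unfold cm; group }
        refine hmem.2 ⟨hO K (isPGroup_two_of_pow (n := n + 2) ?_)
          (fun x hx => conjBy_eq_of_comm hx.1) ?_ ⟨hy, hc⟩, hy⟩
        · rintro x ⟨hx, hx'⟩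
          have := hn _ (hCP _ (hsq x hx hx'))
          rw [← this, pow_add, mul_comm, pow_mul]
          congr 1
          rw [show 2 ^ 2 = 2 + 2 from rfl, pow_add, pow_two]
        · rintro m hm x ⟨hx, hx'⟩
          refine ⟨hcj hm hx, fun p hp => ?_⟩
          have := conj_mem_of_conjBy_eq hm (hx' _ (hPn _ (hinv hm) p hp))
          convert this using 1; unfold cm; group
      big := by
        intro hb y hy
        refine hmem.2 ⟨hO (Subgroup.centralizer (V : Set G)) (isPGroup_two_of_pow (n := n + 1) ?_)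
          (fun x hx => conjBy_eq_of_comm fun v hv => (hx v hv).symm) ?_
          (fun v hv => (hy v hv).symm), hy⟩
        · intro x hx
          have := hn _ (hb x fun v hv => (hx v hv).symm).1
          rw [← this, pow_add, mul_comm, pow_mul, pow_one, pow_two]
        · intro m hm x hx v hv
          exact (hcj hm (fun v hv => (hx v hv).symm) v hv).symm
      nonab := by
        intro x hx hc
        let S : Set G := {y | y ∈ V ∨ ∃ m, conjBy V m = V ∧ y = m * x * m⁻¹}
        have hSP : Subgroup.closure S ≤ P := by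
          rw [Subgroup.closure_le]
          rintro y (hy | ⟨m, hm, rfl⟩)
          · exact hle hy
          · exact hPn m hm x hx
        refine hmax (Subgroup.closure S) (fun v hv => Subgroup.subset_closure (Or.inl hv))
          (fun y hy => hPM y (hSP hy)) ?_ ?_
          (Subgroup.subset_closure (Or.inr ⟨1, conjBy_one V, by simp⟩))
        · have h1 : ∀ a ∈ S, ∀ b ∈ S, a * b = b * a := by
            rintro a (ha | ⟨m, hm, rfl⟩) b (hb | ⟨m', hm', rfl⟩)
            · exact hV.comm ha hb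
            · exact (hcen _ (hPn m' hm' x hx) a ha).symm
            · exact hcen _ (hPn m hm x hx) b hb
            · have := hc (m⁻¹ * m') (by rw [← conjBy_conjBy, hm', hinv hm])
              calc m * x * m⁻¹ * (m' * x * m'⁻¹)
                  = m * (x * (m⁻¹ * m' * x * (m⁻¹ * m')⁻¹)) * m⁻¹ := by group
                _ = _ := by rw [this]; group
          have h2 : Subgroup.closure S ≤ Subgroup.centralizer S := by
            rw [Subgroup.closure_le]
            exact fun a ha b hb => h1 b hb a ha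
          have h3 : Subgroup.closure S ≤ Subgroup.centralizer (Subgroup.closure S : Set G) := by
            rw [Subgroup.closure_le]
            exact fun a ha b hb => (h2 hb a ha).symm
          exact fun a ha b hb => h3 hb a ha
        · intro m hm y hy
          have : conjBy (Subgroup.closure S) m ≤ Subgroup.closure S := by
            rw [conjBy, MonoidHom.map_closure]
            apply Subgroup.closure_mono
            rintro _ ⟨a, (ha | ⟨m', hm', rfl⟩), rfl⟩
            · exact Or.inl (conj_mem_of_conjBy_eq hm ha)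
            · exact Or.inr ⟨m * m', by rw [← conjBy_conjBy, hm', hm], by
                simp only [MulEquiv.toMonoidHom_eq_coe, MonoidHom.coe_coe, MulAut.conj_apply]; group⟩
          exact this (conj_mem_conjBy m hy) }

end H66.TI
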