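/- Root involutions: local lemmas for the root structure theorem (S5055). -/
import Cfsg.Agent.H70.RI3

set_option autoImplicit false

namespace H66.RST
open Cfsg H70

variable {G : Type*} [Group G] {D : Set G} {a b c d e f g m u w x y z : G}

theorem cj_mul (hg : g * g = 1) (x y : G) : g * (x * y) * g = g * x * g * (g * y * g) := by
  simp only [mul_assoc, sqc hg]

theorem braid (ha : a * a = 1) (hx : x * x = 1) (h3 : orderOf (a * x) = 3) :
    x * a * x = a * x * a := by
  have := pow_orderOf_eq_one (a * x)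
  rw [h3] at this
  have e : a * x * a * (x * a * x) = 1 := by simpa only [pow_succ, pow_zero, one_mul, mul_assoc] using this
  rw [← inv_eq_of_mul_eq_one_right e]
  simp only [mul_inv_rev, inv_of_sq ha, inv_of_sq hx, mul_assoc]

section
variable (hD : IsRootInvolutionSet D)
include hD

/-- In an `S₃` the group generated by `b` is a natural module. -/
theorem o3 (h : Cfg D a b x) (h3 : orderOf (a * x) = 3) :
    a * x * a * b * (a * x * a) = x * b * x * b ∧ a * (x * b * x * b) * a = b * (x * b * x * b) := by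
  have sa := ri_sq hD h.ha; have sb := ri_sq hD h.hb; have sx := ri_sq hD h.hx
  have br := braid sa sx h3
  have ab := conj_eq_of_commute' h.comm sa
  obtain ⟨p, hp⟩ : ∃ p, p = x * b * x := ⟨_, rfl⟩
  obtain ⟨q, hq⟩ : ∃ q, q = a * p * a := ⟨_, rfl⟩
  have sp : p * p = 1 := by rw [hp]; exact ri_sq hD (ri_conj' hD h.hb sx)
  have sq : q * q = 1 := by rw [hq, ← cj_mul sa, sp, mul_one, sa]
  have e1 : a * x * a * b * (a * x * a) = q := by
    rw [hq, hp]; nth_rewrite 2 [← ab]; simp only [mul_assoc]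
  have xb : x * b * x = p := hp.symm
  have xp : x * p * x = b := by rw [hp, conj_conj_of_sq sx]
  have aq : a * q * a = p := by rw [hq, conj_conj_of_sq sa]
  have xq : x * q * x = q := by
    calc x * q * x = x * a * x * b * (x * a * x) := by rw [hq, hp]; simp only [mul_assoc]
      _ = q := by rw [br, e1]
  have c1 : Commute b p := by
    have := h.four.swap sx sb
    rw [hp]; simpa only [Commute, SemiconjBy, mul_assoc] using this
  have c2 : Commute b q := by have := commute_conj' c1 sa; rwa [ab, ← hq] at this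
  have c3 : Commute p q := by have := commute_conj' c2 sx; rwa [xb, xq] at this
  have ca : Commute a (b * p * q) := commute_of_conj' sa (by
    rw [cj_mul sa, cj_mul sa, ab, ← hq, aq, mul_assoc, ← c3.eq, mul_assoc])
  have cx : Commute x (b * p * q) := commute_of_conj' sx (by
    rw [cj_mul sx, cj_mul sx, xb, xp, xq, c1.eq])
  have cp : Commute (b * p * q) p := (c1.mul_left (Commute.refl p)).mul_left c3.symm
  have key : b * p * q = 1 := ri_even hD (ri_conj' hD h.ha sp) (ri_conj' hD h.hx sp)
    (h.opp.symm.conj' sp) (sq_mul_of_commute (sq_mul_of_commute sb sp c1) sq (c2.mul_left c3))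
    ((cp.mul_right ca.symm).mul_right cp) ((cp.mul_right cx.symm).mul_right cp) (by
      have : p * a * p = a * (q * p) := by rw [hq]; simp only [mul_assoc, sqc sa]
      rw [this, ← mul_assoc, ← ca.eq]
      simpa only [mul_assoc, sqc sq, sp, mul_one] using h.hab)
  have e2 : q = p * b := by
    rw [← inv_eq_of_mul_eq_one_right key, mul_inv_rev, inv_of_sq sp, inv_of_sq sb]
  rw [e1, xb, cj_mul sa, ab, ← hq, e2, ← mul_assoc, c1.eq]
  exact ⟨rfl, rfl⟩

theorem four_mul_left (ha : a ∈ D) (hb : b ∈ D) : a * b * a * b * a ∈ D := by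
  simpa only [mul_inv_rev, ri_inv hD ha, ri_inv hD hb, mul_assoc] using ri_conj hD ha (a * b)

theorem four_mul_right (ha : a ∈ D) (hb : b ∈ D) : a * b * a * b * b ∈ D := by
  simpa only [mul_assoc, ri_sq hD hb, mul_one] using ri_conj' hD hb (ri_sq hD ha)

theorem not_opp (ha : a ∈ D) (hb : b ∈ D) (hab : a * b ∈ D) (hc : Commute a b) (hx : x ∈ D)
    (h : Commute a x) : ¬ IOpp x b := fun o => ri_not_commute_of_opp hD ha hb hab hc hx o h.symm

/-- `b` collinear with `a`, `x` opposite `a` and collinear with some `m` commuting with `b`. -/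
theorem cfg_of (ha : a ∈ D) (hb : b ∈ D) (hab : a * b ∈ D) (hc : Commute a b) (hx : x ∈ D)
    (o : IOpp a x) (hm : m ∈ D) (hmx : m * x ∈ D) (c1 : Commute m x) (c2 : Commute m b) :
    Cfg D a b x :=
  ⟨ha, hb, hx, hab, hc, ri_four_of hD hx hb
    (ri_not_commute_of_opp hD hb ha (hc.eq ▸ hab) hc.symm hx o.symm)
    fun o' => not_opp hD hm hx hmx c1 hb c2 o'.symm, o.symm⟩

end

/-- The `S₃` partner of `a` for the pair `a, m`. -/
theorem partner [Finite G] (h : RIC D) (ha : a ∈ D) (hm : m ∈ D) (h4 : Four a m) :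
    ∃ y ∈ D, IOpp a y ∧ orderOf (a * y) = 3 ∧ m * y ∈ D ∧ Commute m y ∧
      a * y * a * (a * m * a * m) * (a * y * a) = m ∧ y * (a * m * a * m) * y = m * (a * m * a * m) := by
  obtain ⟨y, hy, f, e, o, h3⟩ := h.exists_s3 ha hm h4
  have sa := ri_sq h.ri ha; have sm := ri_sq h.ri hm; have sy := ri_sq h.ri hy
  have hk := ri_four_mem h.ri ha hm h4
  have cf : Cfg D a (a * m * a * m) y :=
    ⟨ha, hk, hy, ri_four_mul h.ri ha hm, h4.comm_left sa sm, f, o.symm⟩
  refine ⟨y, hy, o, h3, e ▸ four_mul_left h.ri hy hk, e ▸ (f.comm_left sy (ri_sq h.ri hk)).symm,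
    (o3 h.ri cf h3).1.trans e, ?_⟩
  nth_rewrite 3 [← e]
  rw [mul_assoc _ (a * m * a * m) (a * m * a * m), ri_sq h.ri hk, mul_one]

/-- A common neighbour of a pair of order four is collinear with the commutator. -/
theorem tprime [Finite G] (h : RIC D) (ha : a ∈ D) (hm : m ∈ D) (h4 : Four a m) (hz : z ∈ D)
    (haz : a * z ∈ D) (c1 : Commute a z) (hmz : m * z ∈ D) (c2 : Commute m z) :
    a * m * a * m = z ∨ z * (a * m * a * m) ∈ D := by
  obtain ⟨y, hy, o, h3, hmy, c3, -, -⟩ := partner h ha hm h4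
  have sa := ri_sq h.ri ha; have sm := ri_sq h.ri hm; have sy := ri_sq h.ri hy
  have sz := ri_sq h.ri hz
  have cf := cfg_of h.ri ha hz haz c1 hy o hm hmy c3 c2
  have e := (o3 h.ri cf h3).2
  set k := a * m * a * m with hk
  set e' := y * z * y * z with he'
  have sk : k * k = 1 := h4.pow_four
  have se : e' * e' = 1 := cf.four.pow_four
  have c4 : Commute m e' := ((c3.mul_right c2).mul_right c3).mul_right c2
  have c5 : Commute z e' := cf.four.comm_right sy sz
  have c6 : Commute z k := ((c1.symm.mul_right c2.symm).mul_right c1.symm).mul_right c2.symm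
  have hj : e' * z * m ∈ D := by
    have := ri_conj' h.ri hmz sy
    rw [c2.eq, cj_mul sy, conj_eq_of_commute' c3.symm sy] at this
    simpa only [he', mul_assoc, sqc sz] using this
  have am : a * m * a = k * m := by simp only [hk, mul_assoc, sm, mul_one]
  have e2 : a * (e' * z * m) * a * (e' * z * m) = z * k := by
    have c7 : Commute m k := h4.comm_right sa sm
    rw [cj_mul sa, cj_mul sa, e, conj_eq_of_commute' c1 sa, am, c5.eq, ← c7.eq]
    simp only [mul_assoc, sqc sz]
    have c8 : Commute k e' := by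
      have h1 : Commute (a * m * a) (a * e' * a) := commute_conj' c4 sa
      rw [am, e] at h1
      have h2 : Commute (k * m * m) (z * (z * e')) :=
        ((c6.symm.mul_left c2).mul_right h1).mul_left (c2.mul_right (c2.mul_right c4))
      simpa only [mul_assoc, sm, mul_one, sqc sz] using h2
    rw [c8.left_comm, c4.left_comm, sqc se, c6.symm.left_comm, c2.left_comm, c7.left_comm, sm, mul_one]
  by_cases e3 : z * k = 1
  · exact .inl (by rw [← inv_eq_of_mul_eq_one_right e3, inv_of_sq sz])
  refine .inr (e2 ▸ ri_four_mem h.ri ha hj (four_of_pow sa (ri_sq h.ri hj) (fun c => e3 ?_) ?_))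
  · rw [← e2, conj_eq_of_commute' c sa, ri_sq h.ri hj]
  · rw [e2]; exact sq_mul_of_commute sz sk c6

/-- The isolated vertices of the odd graph on `C_D(z)`. -/
def W (D : Set G) (z : G) : Set G := {w | w ∈ D ∧ Commute z w ∧ ∀ y ∈ D, Commute z y → ¬ IOpp w y}

theorem mem_E : e ∈ sameCommutingClass D z ↔ e ∈ D ∧ ∀ y ∈ D, Commute z y ↔ Commute e y := by
  refine and_congr_right fun _ => ⟨fun h y hy => ?_, fun h => ?_⟩
  · have := Set.ext_iff.1 h y
    simp only [commutingMembers, Set.mem_ofPred_eq, hy, true_and] at this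
    exact ⟨fun c => (this.1 c.symm.eq).symm, fun c => (this.2 c.symm.eq).symm⟩
  · ext y
    exact and_congr_right fun hy => ⟨fun c => ((h y hy).1 c.symm).symm.eq,
      fun c => ((h y hy).2 c.symm).symm.eq⟩

theorem W_of_E (he : e ∈ sameCommutingClass D z) : W D e = W D z := by
  have := (mem_E.1 he).2
  ext w
  exact and_congr_right fun hw => and_congr (this w hw).symm
    (forall₂_congr fun y hy => by rw [this y hy])

theorem E_of_E (he : e ∈ sameCommutingClass D z) : sameCommutingClass D e = sameCommutingClass D z := by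
  ext w
  simp only [sameCommutingClass, Set.mem_ofPred_eq, he.2]

theorem commute_conj_iff (g : G) : Commute (g * a * g⁻¹) y ↔ Commute a (g⁻¹ * y * g) :=
  ⟨fun h => by simpa [mul_assoc] using h.conj g⁻¹, fun h => by simpa [mul_assoc] using h.conj g⟩

section
variable (hD : IsRootInvolutionSet D)
include hD

theorem W_conj (hw : w ∈ W D z) (g : G) : g * w * g⁻¹ ∈ W D (g * z * g⁻¹) :=
  ⟨ri_conj hD hw.1 g, hw.2.1.conj g, fun y hy c o => hw.2.2 _ (by simpa using ri_conj hD hy g⁻¹)
    ((commute_conj_iff g).1 c) (by simpa [mul_assoc] using o.conj g⁻¹)⟩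

theorem E_conj (he : e ∈ sameCommutingClass D z) (g : G) :
    g * e * g⁻¹ ∈ sameCommutingClass D (g * z * g⁻¹) :=
  mem_E.2 ⟨ri_conj hD he.1 g, fun y hy => by
    rw [commute_conj_iff, commute_conj_iff, (mem_E.1 he).2 _ (by simpa using ri_conj hD hy g⁻¹)]⟩

theorem col_W (hz : z ∈ D) (hu : u ∈ D) (c : Commute z u) (hzu : z * u ∈ D) : u ∈ W D z :=
  ⟨hu, c, fun _ hy cy o => not_opp hD hz hu hzu c hy cy o.symm⟩

theorem E_W (hz : z ∈ D) (he : e ∈ sameCommutingClass D z) : e ∈ W D z :=
  ⟨he.1, (((mem_E.1 he).2 z hz).1 (Commute.refl z)).symm, fun y hy c o =>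
    o.not_commute (ri_sq hD he.1) (ri_sq hD hy) (((mem_E.1 he).2 y hy).1 c)⟩

theorem W_conj' (hw : w ∈ W D z) (c : Commute g z) : g * w * g⁻¹ ∈ W D z := by
  have := W_conj hD hw g
  rwa [conj_eq_of_commute c] at this

theorem N_pgroup [Finite G] : IsPGroup 2 (Subgroup.closure (W D z)) :=
  ri_pgroup_closure hD (fun _ h => h.1) (fun s hs t ht => by
    have := W_conj' hD ht hs.2.1.symm
    rwa [ri_inv hD hs.1] at this) fun s hs t ht => hs.2.2 t ht.1 ht.2.1

omit hD in
theorem N_comm (he : e ∈ sameCommutingClass D z) (hg : g ∈ Subgroup.closure (W D z)) :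
    Commute e g := by
  induction hg using Subgroup.closure_induction with
  | mem w hw => exact ((mem_E.1 he).2 w hw.1).1 hw.2.1
  | one => exact Commute.one_right e
  | mul _ _ _ _ h1 h2 => exact h1.mul_right h2
  | inv _ _ h => exact h.inv_right

theorem W_of_N [Finite G] (hz : z ∈ D) (hw : w ∈ D) (h : w ∈ Subgroup.closure (W D z)) :
    w ∈ W D z :=
  ⟨hw, N_comm ⟨hz, rfl⟩ h, fun y hy c => ri_not_opp_of_normal hD
    (H := Subgroup.centralizer {z}) (N_pgroup hD) (fun g hg n hn => by
      have cg : Commute g z := (Subgroup.mem_centralizer_singleton_iff.1 hg)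
      induction hn using Subgroup.closure_induction with
      | mem w hw => exact Subgroup.subset_closure (W_conj' hD hw cg)
      | one => simp
      | mul _ _ _ _ h1 h2 => simpa [mul_assoc] using mul_mem h1 h2
      | inv _ _ h => simpa [mul_assoc] using inv_mem h) hw hy h
    (Subgroup.mem_centralizer_singleton_iff.2 c.symm.eq)⟩

end

theorem exists_opp_four [Finite G] (h : RIC D) (hz : z ∈ D) (hd : d ∈ W D z)
    (hE : d ∉ sameCommutingClass D z) : ∃ g ∈ D, IOpp d g ∧ Four g z := by
  by_contra hn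
  have key : ∀ x ∈ D, IOpp d x → IOpp z x := fun x hx o => by
    rcases ri_tri h.ri hx hz with c | c | c
    · exact absurd o (hd.2.2 x hx c.symm)
    · exact c.symm
    · exact absurd ⟨x, hx, o, c⟩ hn
  have k := fun x hx => Iff.intro (key x hx) (h.opp_symm hd.1 hz key x hx)
  exact hE (mem_E.2 ⟨hd.1, fun y hy => ⟨h.comm_of_opp_eq hz hd.1 (fun x hx => (k x hx).symm) hy,
    h.comm_of_opp_eq hd.1 hz k hy⟩⟩)

/-- The commutator of `g` and `z` is collinear with `z` and does not commute with `d`. -/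
theorem four_comm (hD : IsRootInvolutionSet D) (hz : z ∈ D) (hd : d ∈ W D z) (hg : g ∈ D)
    (o : IOpp d g) (f : Four g z) : g * z * g * z ∈ D ∧ Commute z (g * z * g * z) ∧
      z * (g * z * g * z) ∈ D ∧ Four (g * z * g * z) d := by
  have hm := ri_four_mem hD hg hz f
  have c := f.comm_right (ri_sq hD hg) (ri_sq hD hz)
  have hzm : z * (g * z * g * z) ∈ D := c.eq ▸ four_mul_right hD hg hz
  exact ⟨hm, c, hzm, ri_four_of hD hm hd.1 (fun c' => ri_not_commute_of_opp hD hm hg
    (four_mul_left hD hg hz) (f.comm_left (ri_sq hD hg) (ri_sq hD hz)).symm hd.1 o c'.symm)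
    fun o' => hd.2.2 _ hm c o'.symm⟩

/-- An element of maximal depth in a finite `p`-group. -/
theorem exists_deep [Finite G] {N : Subgroup G} (hN : IsPGroup 2 N) {S : Set G} (hS : S ⊆ N)
    (h1 : (1 : G) ∉ S) (ha : a ∈ S) : ∃ a ∈ S, ∀ g ∈ N, ∀ n ∈ N,
      g * a * g⁻¹ * n * (g * a * g⁻¹)⁻¹ * n⁻¹ ∉ S := by
  obtain ⟨n, hn⟩ := (Subgroup.isNilpotent_iff_lowerCentralSeries N).1 hN.isNilpotent
  by_contra hc
  push Not at hc
  have key : ∀ i, ∃ a ∈ S, a ∈ N.lowerCentralSeries i := by
    intro i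
    induction i with
    | zero => exact ⟨a, ha, hS ha⟩
    | succ i ih =>
      obtain ⟨b, hb, hi⟩ := ih
      obtain ⟨g, hg, n, hn, h⟩ := hc b hb
      exact ⟨_, h, Subgroup.commutator_mem_commutator ((Subgroup.mem_normalizer_iff.1
        (N.self_le_normalizer_lowerCentralSeries i hg) b).1 hi) hn⟩
  obtain ⟨b, hb, hi⟩ := key n
  rw [hn, Subgroup.mem_bot] at hi
  exact h1 (hi ▸ hb)

end H66.RST
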