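/- Root involutions: the root structure theorem (S5055). -/
import Cfsg.Agent.H66.RST1

set_option autoImplicit false

namespace H66.RST
open Cfsg H70

variable {G : Type*} [Group G] {D : Set G} {a b c d e f g m u w x y z θ : G}

/-- The standing hypothesis: the classes `E_d` are subgroups up to the identity. -/
structure HE (D : Set G) : Prop extends RIC D where
  sub : ∀ d ∈ D, (sameCommutingSubgroup D d : Set G) = sameCommutingClass D d ∪ {1}

/-- `g` centralises `W_z` modulo `E(z)`. -/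
def U (D : Set G) (z g : G) : Prop := ∀ w ∈ W D z, g * w * g⁻¹ * w⁻¹ ∈ sameCommutingSubgroup D z

theorem Z_of_E (he : e ∈ sameCommutingClass D z) :
    sameCommutingSubgroup D e = sameCommutingSubgroup D z := by
  rw [sameCommutingSubgroup, sameCommutingSubgroup, E_of_E he]

theorem U_of_E (he : e ∈ sameCommutingClass D z) : U D e = U D z := by
  funext g; rw [U, U, W_of_E he, Z_of_E he]

namespace HE
variable (h : HE D)
include h

theorem mem_Z (hz : z ∈ D) : e ∈ sameCommutingSubgroup D z ↔ e ∈ sameCommutingClass D z ∨ e = 1 :=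
  Set.ext_iff.1 (h.sub z hz) e

theorem Z_comm (hz : z ∈ D) (he : e ∈ sameCommutingSubgroup D z) (hy : y ∈ D) (c : Commute z y) :
    Commute e y := by
  rcases (h.mem_Z hz).1 he with k | rfl
  · exact ((mem_E.1 k).2 y hy).1 c
  · exact Commute.one_left y

theorem Z_comm_N (hz : z ∈ D) (he : e ∈ sameCommutingSubgroup D z)
    (hg : g ∈ Subgroup.closure (W D z)) : Commute e g := by
  rcases (h.mem_Z hz).1 he with k | rfl
  · exact N_comm k hg
  · exact Commute.one_left g

theorem four_E (hz : z ∈ D) (he : e ∈ sameCommutingClass D z) (hy : y ∈ D) (f : Four y z) :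
    Four y e :=
  ri_four_of h.ri hy he.1 (fun c => f.not_commute (ri_sq h.ri hy) (ri_sq h.ri hz)
    (((mem_E.1 he).2 y hy).2 c.symm).symm) fun o => (opp_of_comm_subset h.ri he.1 hz
      (fun y hy => ((mem_E.1 he).2 y hy).1) hy o.symm).symm.not_four f

theorem U_mul (hz : z ∈ D) (ha : a ∈ Subgroup.closure (W D z)) (h1 : U D z a) (h2 : U D z b) :
    U D z (a * b) := fun w hw => by
  have := mul_mem (h2 w hw) (h1 w hw)
  rw [← mul_assoc, ← mul_assoc, ← mul_assoc, (h.Z_comm_N hz (h2 w hw) ha).eq] at this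
  simpa [mul_assoc] using this

theorem U_conj (hz : z ∈ D) (ha : a ∈ W D z) (h1 : U D z b) : U D z (a * b * a) := fun w hw => by
  have sa := ri_sq h.ri ha.1
  have k := h1 _ (W_conj' h.ri hw ha.2.1.symm)
  have := conj_eq_of_commute' (h.Z_comm hz k ha.1 ha.2.1).symm sa
  rw [← this] at k
  simpa only [mul_inv_rev, inv_of_sq sa, mul_assoc, sqc sa, sa, mul_one] using k

/-- An involution inverting the roles: if `y` is opposite `d`, then `mid d y` maps `E(z)` onto
the commutators of `y` with `E(z)`. -/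
theorem mid_E (hz : z ∈ D) (hd : d ∈ W D z) (h2 : U D z d) (hy : y ∈ D) (f : Four y z)
    (o : IOpp d y) : mid d y * (y * z * y * z) * mid d y ∈ sameCommutingClass D z := by
  have sd := ri_sq h.ri hd.1; have sy := ri_sq h.ri hy; have sz := ri_sq h.ri hz
  have hv : ∀ e ∈ sameCommutingClass D z, y * e * y * e ∈ W D z ∧ Commute z (y * e * y) := by
    intro e he
    have fe := h.four_E hz he hy f
    have c := fe.comm_right sy (ri_sq h.ri he.1)
    have k := col_W h.ri he.1 (ri_four_mem h.ri hy he.1 fe) c (c.eq ▸ four_mul_right h.ri hy he.1)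
    rw [W_of_E he] at k
    refine ⟨k, ?_⟩
    simpa only [mul_assoc, ri_sq h.ri he.1, mul_one] using k.2.1.mul_right (E_W h.ri hz he).2.1
  have cc : ∀ e ∈ sameCommutingSubgroup D z, ∀ e' ∈ sameCommutingSubgroup D z,
      Commute e (y * e' * y) := fun e he e' he' => by
    rcases (h.mem_Z hz).1 he' with k | rfl
    · exact h.Z_comm hz he (ri_conj' h.ri k.1 sy) (hv e' k).2
    · rw [mul_one, sy]; exact Commute.one_right e
  have zZ : z ∈ sameCommutingSubgroup D z := Subgroup.subset_closure ⟨hz, rfl⟩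
  obtain ⟨e, he, e', he', k⟩ := conj_mem_of_closure (T := {d, y})
    (U := {a | ∃ e ∈ sameCommutingSubgroup D z, ∃ e' ∈ sameCommutingSubgroup D z,
      a = e * (y * e' * y)}) (by rintro _ (rfl | rfl) <;> assumption) (by
      rintro t (rfl | rfl) _ ⟨e, he, e', he', rfl⟩
      · rw [cj_mul sd, conj_eq_of_commute' (h.Z_comm hz he hd.1 hd.2.1).symm sd]
        rcases (h.mem_Z hz).1 he' with k | rfl
        · refine ⟨_, mul_mem he (h2 _ (hv e' k).1), e', he', ?_⟩
          have c := (h.Z_comm hz he' hd.1 hd.2.1).symm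
          simp only [mul_inv_rev, inv_of_sq sd, inv_of_sq sy, ri_inv h.ri k.1, mul_assoc, sqc sy,
            sqc (ri_sq h.ri k.1), sy, mul_one]
          rw [c.eq, sqc (ri_sq h.ri k.1)]
        · exact ⟨e, he, 1, one_mem _, by simp [sy, sd]⟩
      · exact ⟨e', he', e, he, by rw [cj_mul sy, conj_conj_of_sq sy, (cc e' he' e he).eq]⟩)
    (mid d y) (mid_mem (Subgroup.subset_closure (.inl rfl)) (Subgroup.subset_closure (.inr rfl)))
    (y * z * y * z) ⟨z, zZ, z, zZ, (cc z zZ z zZ).eq.symm⟩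
  have st := mid_sq sd sy
  rw [inv_of_sq st] at k
  have c1 : Commute d (e * (y * e' * y)) := by
    have := commute_conj' (f.comm_left sy sz) st
    rwa [mid_swap_right sd sy o.2, k] at this
  rcases (h.mem_Z hz).1 he' with k' | rfl
  · have c2 := (h.Z_comm hz he hd.1 hd.2.1).symm
    have c3 := (c2.inv_right.mul_right c1).mul_right (h.Z_comm hz he' hd.1 hd.2.1).symm
    rw [inv_mul_cancel_left] at c3
    exact absurd c3 (ri_not_commute_of_opp h.ri (hv e' k').1.1 hy (four_mul_left h.ri hy k'.1)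
      ((h.four_E hz k' hy f).comm_left sy (ri_sq h.ri k'.1)).symm hd.1 o)
  rw [mul_one, sy, mul_one] at k
  rw [k]
  exact ((h.mem_Z hz).1 he).resolve_right fun e1 =>
    ri_ne_one h.ri (ri_conj' h.ri (ri_four_mem h.ri hy hz f) st) (k.trans e1)

variable [Finite G]

theorem core (hz : z ∈ D) (hu : u ∈ D) (c : Commute z u) (hzu : z * u ∈ D) (hθ : θ ∈ W D z)
    (h1 : u * θ * u * θ ∉ sameCommutingSubgroup D z) (h2 : U D z (u * θ * u * θ)) : False := by
  have su := ri_sq h.ri hu; have sθ := ri_sq h.ri hθ.1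
  have uW := col_W h.ri hz hu c hzu
  have f1 : Four u θ := ri_four_of h.ri hu hθ.1
    (fun k => h1 (by rw [mul_assoc, sq_mul_of_commute su sθ k]; exact one_mem _))
    fun o => hθ.2.2 u hu c o.symm
  obtain ⟨d, hd'⟩ : ∃ d, d = u * θ * u * θ := ⟨_, rfl⟩
  have hd : d ∈ D := hd' ▸ ri_four_mem h.ri hu hθ.1 f1
  have sd := ri_sq h.ri hd
  have dW : d ∈ W D z := W_of_N h.ri hz hd (by
    have a1 := Subgroup.subset_closure (k := W D z) uW
    have a2 := Subgroup.subset_closure (k := W D z) hθ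
    exact hd' ▸ mul_mem (mul_mem (mul_mem a1 a2) a1) a2)
  have cud : Commute u d := hd' ▸ f1.comm_left su sθ
  have cθd : Commute θ d := hd' ▸ f1.comm_right su sθ
  have hud : u * d ∈ D := hd' ▸ ri_four_mul h.ri hu hθ.1
  have θu : θ * u * θ = d * u := by rw [four_conj_eq su, ← hd', cud.eq]
  rw [← hd'] at h1 h2
  obtain ⟨g, hg, og, fg⟩ := exists_opp_four h.toRIC hz dW fun k => h1 ((h.mem_Z hz).2 (.inl k))
  obtain ⟨hm, czm, hzm, f2⟩ := four_comm h.ri hz dW hg og fg
  generalize g * z * g * z = m at hm czm hzm f2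
  have sm := ri_sq h.ri hm
  have hE : d * m * d * m ∈ sameCommutingClass D z := by
    have := h2 m (col_W h.ri hz hm czm hzm)
    rw [inv_of_sq sd, inv_of_sq sm] at this
    exact ((h.mem_Z hz).1 this).resolve_right (f2.symm.ne_one sd sm)
  by_cases cmu : Commute m u
  · obtain ⟨x, hx, o, h3, hmx, cmx, e1, -⟩ := partner h.toRIC hd hm f2.symm
    have sx := ri_sq h.ri hx
    have st : d * x * d * (d * x * d) = 1 := ri_sq h.ri (ri_conj' h.ri hx sd)
    have cf := cfg_of h.ri hd hu (cud.eq ▸ hud) cud.symm hx o hm hmx cmx cmu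
    obtain ⟨e2, e3⟩ := o3 h.ri cf h3
    have hk := ri_four_mem h.ri hx hu cf.four
    have sk := ri_sq h.ri hk
    have cuk := cf.four.comm_right sx su
    have c1 := commute_conj' cmu st
    rw [e2, ← e1, conj_conj_of_sq st] at c1
    refine hθ.2.2 _ hk (((mem_E.1 hE).2 _ hk).2 c1) (opp_of_s3 h.ri hθ.1 hk (a := d) (b := u)
      (ri_ne_one h.ri hu) (conj_eq_of_commute' cθd sθ) θu (conj_eq_of_commute' cuk.symm sk) ?_)
    generalize x * u * x * u = k at e3 sk cuk
    calc k * d * k = k * (d * k * d) * d := by simp only [mul_assoc, sd, mul_one]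
      _ = d * u := by rw [e3, ← mul_assoc, conj_eq_of_commute' cuk.symm sk, cud.eq]
  have f3 : Four u m := ri_four_of h.ri hu hm (fun k => cmu k.symm) (uW.2.2 m hm czm)
  obtain ⟨y, hy, o, h3, hmy, cmy, e1, -⟩ := partner h.toRIC hu hm f3
  have sy := ri_sq h.ri hy
  have ss : u * y * u * (u * y * u) = 1 := ri_sq h.ri (ri_conj' h.ri hy su)
  have cf := cfg_of h.ri hu hz (c.eq ▸ hzu) c.symm hy o hm hmy cmy czm.symm
  have od : IOpp d y := by
    by_contra k
    have nc := ri_not_commute_of_opp h.ri hd hu (cud.eq ▸ hud) cud.symm hy o.symm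
    have cf' : Cfg D u d y := ⟨hu, hd, hy, hud, cud, ri_four_of h.ri hy hd nc fun o => k o.symm, o.symm⟩
    have c1 : Commute (u * m * u * m) d := by
      have a1 := commute_conj' cud sm
      have a2 : Commute (m * u * m) (d * m * d * m) := by
        have b1 := ((mem_E.1 hE).2 u hu).1 c
        have b2 := ((mem_E.1 hE).2 m hm).1 czm
        exact ((b2.mul_right b1).mul_right b2).symm
      have a3 := a2.mul_right a1
      simp only [mul_assoc, sqc sm, sqc sd, sm, mul_one] at a3
      simpa only [mul_assoc] using cud.mul_left a3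
    have c2 := commute_conj' c1 ss
    rw [e1, (o3 h.ri cf' h3).1] at c2
    have c3 := cf'.four.comm_right sy sd
    have se : y * d * y * d * (y * d * y * d) = 1 := cf'.four.pow_four
    have yd : y * d * y = y * d * y * d * d := by simp only [mul_assoc, sd, mul_one]
    refine cf.four.not_commute sy (ri_sq h.ri hz) (((mem_E.1 hE).2 y hy).2
      (commute_of_conj' sy ?_).symm).symm
    rw [cj_mul sy, cj_mul sy, cj_mul sy, conj_eq_of_commute' cmy.symm sy, yd]
    generalize y * d * y * d = e at c2 c3 se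
    simp only [mul_assoc]
    rw [c2.left_comm, c3.left_comm, sqc se]
  have k := h.mid_E hz dW h2 hy cf.four od
  have st := mid_sq sd sy
  have g1 : u * y * u * mid d y * (mid d y * (y * z * y * z) * mid d y) * (u * y * u * mid d y)⁻¹ = z := by
    rw [← (o3 h.ri cf h3).1]
    simp only [mul_inv_rev, inv_of_sq st, inv_of_sq su, inv_of_sq sy, mul_assoc, sqc st, sqc su,
      sqc sy, su, mul_one]
  have g2 : u * y * u * mid d y * d * (u * y * u * mid d y)⁻¹ = u := by
    have := mid_swap_left sd sy od.2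
    calc _ = u * y * u * (mid d y * d * mid d y) * (u * y * u) := by
          simp only [mul_inv_rev, inv_of_sq st, inv_of_sq su, inv_of_sq sy, mul_assoc]
      _ = u * (y * u * y) * (u * y * u) := by rw [this]; simp only [mul_assoc]
      _ = u := by rw [braid su sy h3, mul_assoc, ss, mul_one]
  generalize u * y * u * mid d y = g0 at g1 g2
  generalize mid d y * (y * z * y * z) * mid d y = ζ at k g1
  have w1 := W_conj h.ri hθ g0⁻¹
  rw [← g1, show g0⁻¹ * (g0 * ζ * g0⁻¹) * g0⁻¹⁻¹ = ζ by group, W_of_E k] at w1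
  have e5 : g0 * (d * (g0⁻¹ * θ * g0⁻¹⁻¹) * d⁻¹ * (g0⁻¹ * θ * g0⁻¹⁻¹)⁻¹) * g0⁻¹ = d := by
    nth_rewrite 3 [hd']
    nth_rewrite 2 [← inv_of_sq su, ← inv_of_sq sθ]
    rw [← g2]; group
  rcases (h.mem_Z hz).1 (h2 _ w1) with k1 | k1
  · rw [← E_of_E k] at k1
    have := E_conj h.ri k1 g0
    rw [e5, g1] at this
    exact h1 ((h.mem_Z hz).2 (.inl this))
  · rw [k1, mul_one, mul_inv_cancel] at e5
    exact ri_ne_one h.ri hd e5.symm

theorem deep (hz : z ∈ D) (ha : a ∈ D) (c : Commute z a) (hza : z * a ∈ D)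
    (hdeep : ∀ g ∈ Subgroup.closure (W D z), ∀ n ∈ Subgroup.closure (W D z), ∀ b ∈ D,
      b = g * a * g⁻¹ * n * (g * a * g⁻¹)⁻¹ * n⁻¹ → ∀ e ∈ sameCommutingClass D z, Commute e b →
      e * b ∈ D → U D z b) : U D z a := by
  intro θ hθ
  by_contra h1
  have sa := ri_sq h.ri ha; have sθ := ri_sq h.ri hθ.1
  rw [inv_of_sq sa, inv_of_sq sθ] at h1
  have aW := col_W h.ri hz ha c hza
  have f1 : Four a θ := ri_four_of h.ri ha hθ.1
    (fun k => h1 (by rw [mul_assoc, sq_mul_of_commute sa sθ k]; exact one_mem _))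
    fun o => hθ.2.2 a ha c o.symm
  have hd := ri_four_mem h.ri ha hθ.1 f1
  have aN := Subgroup.subset_closure (k := W D z) aW
  have θN := Subgroup.subset_closure (k := W D z) hθ
  have dW := W_of_N h.ri hz hd (mul_mem (mul_mem (mul_mem aN θN) aN) θN)
  obtain ⟨g, hg, og, fg⟩ := exists_opp_four h.toRIC hz dW fun k => h1 ((h.mem_Z hz).2 (.inl k))
  obtain ⟨hm, czm, hzm, f2⟩ := four_comm h.ri hz dW hg og fg
  generalize g * z * g * z = m at hm czm hzm f2
  have sm := ri_sq h.ri hm
  have mW := col_W h.ri hz hm czm hzm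
  have mN := Subgroup.subset_closure (k := W D z) mW
  by_cases k : m * (a * θ * a * θ) * m * (a * θ * a * θ) ∈ sameCommutingSubgroup D z
  · exact h.core hz ha c hza hθ h1 (hdeep 1 (one_mem _) θ θN _ hd
      (by simp [inv_of_sq sa, inv_of_sq sθ]) _
      (((h.mem_Z hz).1 k).resolve_right (f2.ne_one sm (ri_sq h.ri hd)))
      (f2.comm_right sm (ri_sq h.ri hd)).symm (four_mul_right h.ri hm hd))
  refine h.core hz hm czm hzm dW k ?_
  have key : ∀ g ∈ W D z, U D z (m * (g * a * g) * m * (g * a * g)) := by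
    intro g hg
    have sg := ri_sq h.ri hg.1
    have ha' := ri_conj' h.ri ha sg
    have sa' := ri_sq h.ri ha'
    have e := conj_eq_of_commute' hg.2.1.symm sg
    have c' : Commute z (g * a * g) := e ▸ commute_conj' c sg
    have hza' : z * (g * a * g) ∈ D := by
      have := ri_conj' h.ri hza sg
      rwa [cj_mul sg, e] at this
    by_cases cm : Commute m (g * a * g)
    · rw [mul_assoc, sq_mul_of_commute sm sa' cm]
      intro w hw
      simp
    have f3 := ri_four_of h.ri hm ha' cm (mW.2.2 _ ha' c')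
    rcases tprime h.toRIC hm ha' f3 hz (czm.eq ▸ hzm) czm.symm (c'.eq ▸ hza') c'.symm with e1 | e1
    · rw [e1]
      intro w hw
      rw [hw.2.1.eq]
      simp
    · refine hdeep g (Subgroup.subset_closure hg) m mN _ (ri_four_mem h.ri hm ha' f3) ?_ z ⟨hz, rfl⟩
        (((czm.mul_right c').mul_right czm).mul_right c') e1
      rw [inv_of_sq sg, inv_of_sq sa', inv_of_sq sm, f3.swap sm sa']
  have k1 := key a aW
  rw [show a * a * a = a by rw [sa, one_mul]] at k1
  have := h.U_mul hz (mul_mem (mul_mem (mul_mem mN aN) mN) aN) k1 (h.U_conj hz aW (key θ hθ))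
  convert this using 1
  nth_rewrite 2 [← f1.swap sa sθ]
  simp only [mul_assoc, sqc sa, sqc sm]

/-- `[X_z, W_z] ≤ E(z)`. -/
theorem tplus (hz : z ∈ D) (hu : u ∈ D) (c : Commute z u) (hzu : z * u ∈ D) : U D z u := by
  by_contra hn
  obtain ⟨a, ⟨ha, ⟨e, he, ce, hea⟩, k⟩, hdeep⟩ := exists_deep (N_pgroup h.ri (z := z))
    (S := {a | a ∈ D ∧ (∃ e ∈ sameCommutingClass D z, Commute e a ∧ e * a ∈ D) ∧ ¬ U D z a})
    (fun a ⟨ha, ⟨e, he, ce, hea⟩, _⟩ =>
      Subgroup.subset_closure (W_of_E he ▸ col_W h.ri he.1 ha ce hea))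
    (fun k => ri_ne_one h.ri k.1 rfl) ⟨hu, ⟨z, ⟨hz, rfl⟩, c, hzu⟩, hn⟩
  refine k (U_of_E he ▸ h.deep he.1 ha ce hea ?_)
  rw [W_of_E he, E_of_E he, U_of_E he]
  intro g hg n hn b hb e1 e' he' c' k'
  by_contra hU
  exact hdeep g hg n hn (e1 ▸ ⟨hb, ⟨e', he', c', k'⟩, hU⟩)

/-- A common neighbour of a pair of order four lies in the class of the commutator. -/
theorem tee (hz : z ∈ D) (ha : a ∈ D) (c : Commute z a) (hza : z * a ∈ D) (hb : b ∈ W D z)
    (f : Four a b) : a * b * a * b ∈ sameCommutingClass D z := by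
  have := h.tplus hz ha c hza b hb
  rw [ri_inv h.ri ha, ri_inv h.ri hb.1] at this
  exact ((h.mem_Z hz).1 this).resolve_right (f.ne_one (ri_sq h.ri ha) (ri_sq h.ri hb.1))

theorem col_of_W (hd : d ∈ D) (hw : w ∈ W D d) : w = d ∨ d * w ∈ D := by
  have sd := ri_sq h.ri hd; have sw := ri_sq h.ri hw.1
  have dZ : d ∈ sameCommutingSubgroup D d := Subgroup.subset_closure ⟨hd, rfl⟩
  by_cases hE : w ∈ sameCommutingClass D d
  · rcases (h.mem_Z hd).1 (mul_mem dZ ((h.mem_Z hd).2 (.inl hE))) with k | k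
    · exact .inr k.1
    · exact .inl (by rw [← inv_eq_of_mul_eq_one_right k, inv_of_sq sd])
  obtain ⟨y, hy, o, f⟩ := exists_opp_four h.toRIC hd hw hE
  obtain ⟨hf, c1, hdf, f2⟩ := four_comm h.ri hd hw hy o f
  have sy := ri_sq h.ri hy
  have k1 := h.tee hd hf c1 hdf hw f2
  obtain ⟨b, cb, e⟩ := Cfg.exists_pre h.ri (a := y) (b := y * d * y * d) (x := w)
    ⟨hy, hf, hw.1, ri_four_mul h.ri hy hd, f.comm_left sy sd, f2.symm, o⟩
  have sb := ri_sq h.ri cb.hb
  have c2 : Commute b (y * d * y * d) := e ▸ cb.four.comm_right sy sb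
  have k2 := h.tee cb.hb hf c2 (c2.eq ▸ e ▸ four_mul_right h.ri hy cb.hb)
    (col_W h.ri cb.hb hw.1 cb.comm.symm (cb.comm.eq ▸ cb.hab)) f2
  have k3 : b ∈ sameCommutingClass D d := by
    rw [← E_of_E k1, E_of_E k2]; exact ⟨cb.hb, rfl⟩
  rcases (h.mem_Z hd).1 (mul_mem ((h.mem_Z hd).2 (.inl k3)) dZ) with k | k
  · refine absurd (((mem_E.1 k).2 y hy).2 (commute_of_conj' sy ?_).symm).symm (f.not_commute sy sd)
    have e1 : y * b * y = y * d * y * d * b := by rw [← e]; simp only [mul_assoc, sb, mul_one]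
    have e2 : y * d * y = y * d * y * d * d := by simp only [mul_assoc, sd, mul_one]
    have sf : y * d * y * d * (y * d * y * d) = 1 := f.pow_four
    generalize y * d * y * d = p at c2 sf e1 e2
    rw [cj_mul sy, e1, e2]
    rw [← c2.eq]
    simp only [mul_assoc, sqc sf]
  · have : b = d := by rw [← inv_of_sq sd]; exact eq_inv_of_mul_eq_one_left k
    exact .inr (hw.2.1.eq ▸ this ▸ cb.hab)

theorem W_eq (hd : d ∈ D) : W D d = productPartners D d ∪ {d} := by
  ext w
  refine ⟨fun hw => (h.col_of_W hd hw).symm.imp (fun k => mem_productPartners.2 ⟨hw.1, hw.2.1, k, ?_⟩)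
    id, ?_⟩
  · rintro rfl
    exact ri_ne_one h.ri k (ri_sq h.ri hd)
  · rintro (k | rfl)
    · obtain ⟨a1, a2, a3, -⟩ := mem_productPartners.1 k
      exact col_W h.ri hd a1 a2 a3
    · exact E_W h.ri hd ⟨hd, rfl⟩

theorem U_of_N (hd : d ∈ D) (hg : g ∈ Subgroup.closure (W D d)) : U D d g := by
  refine closure_induction_inv (fun t ht => ri_sq h.ri ht.1) (fun w _ => by simp)
    (fun t ht g _ k => h.U_mul hd (Subgroup.subset_closure ht) ?_ k) g hg
  rcases h.col_of_W hd ht with rfl | k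
  · intro w hw
    rw [hw.2.1.eq]
    simp
  · exact h.tplus hd ht.1 ht.2.1 k

theorem comm_N (hd : d ∈ D) (hf : ∃ b ∈ D, Four d b) :
    ⁅Subgroup.closure (W D d), Subgroup.closure (W D d)⁆ = sameCommutingSubgroup D d := by
  refine le_antisymm (Subgroup.commutator_le.2 fun g hg n hn => ?_)
    ((Subgroup.closure_le _).2 fun e he => ?_)
  · rw [commutatorElement_def]
    refine closure_induction_inv (P := fun n => g * n * g⁻¹ * n⁻¹ ∈ sameCommutingSubgroup D d)
      (fun t ht => ri_sq h.ri ht.1) (by simp) (fun t ht n _ k => ?_) n hn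
    have := mul_mem (h.U_of_N hd hg t ht) k
    rw [← conj_eq_of_commute (h.Z_comm hd k ht.1 ht.2.1).symm] at this
    convert this using 1
    group
  · obtain ⟨b, hb, f⟩ := hf
    obtain ⟨g, e1⟩ := h.cl _ (ri_four_mem h.ri hd hb f) e he.1
    have f' := f.conj g
    have ha' := ri_conj h.ri hd g
    have hb' := ri_conj h.ri hb g
    have e2 : e = g * d * g⁻¹ * (g * b * g⁻¹) * (g * d * g⁻¹) * (g * b * g⁻¹) := by rw [e1]; group
    generalize g * d * g⁻¹ = u at f' ha' e2
    generalize g * b * g⁻¹ = v at f' hb' e2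
    have su := ri_sq h.ri ha'; have sv := ri_sq h.ri hb'
    have := Subgroup.commutator_mem_commutator
      (Subgroup.subset_closure (W_of_E he ▸ col_W h.ri he.1 ha' (e2 ▸ (f'.comm_left su sv).symm)
        (e2 ▸ four_mul_left h.ri ha' hb')))
      (Subgroup.subset_closure (W_of_E he ▸ col_W h.ri he.1 hb' (e2 ▸ (f'.comm_right su sv).symm)
        (e2 ▸ four_mul_right h.ri ha' hb')))
    rwa [commutatorElement_def, inv_of_sq su, inv_of_sq sv, ← e2] at this

theorem E_eq (hd : d ∈ D) : sameCommutingClass D d = {e | e ∈ D ∧ e ∈ Subgroup.closure (W D d) ∧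
    ∀ y ∈ Subgroup.closure (W D d), e * y = y * e} := by
  ext e
  refine ⟨fun he => ⟨he.1, Subgroup.subset_closure (E_W h.ri hd he), fun y hy => N_comm he hy⟩,
    fun ⟨he, k1, k2⟩ => ?_⟩
  have eW := W_of_N h.ri hd he k1
  rcases h.col_of_W hd eW with rfl | k
  · exact ⟨hd, rfl⟩
  have key : ∀ y ∈ D, Commute e y → Commute d y := by
    by_contra hn
    obtain ⟨f, hf, f4, e1⟩ := h.exists_four he hd (eW.2.1.eq ▸ k) eW.2.1.symm hn
    have se := ri_sq h.ri he; have sf := ri_sq h.ri hf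
    exact f4.not_commute se sf (k2 f (Subgroup.subset_closure (col_W h.ri hd hf
      (e1 ▸ (f4.comm_right se sf).symm) (e1 ▸ four_mul_right h.ri he hf))))
  exact mem_E.2 ⟨he, fun y hy => ⟨h.comm_symm he hd key y hy, key y hy⟩⟩

end HE

end H66.RST
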